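import Cfsg.Agent.Lib.H93.Ex.P22
import Cfsg.Agent.Lib.H92.Orth7b
import Cfsg.Agent.Lib.H92.Expl23b
import Cfsg.Agent.Lib.H92.Expl24b
import Cfsg.Agent.Lib.H90.ThreeTransI

/-!
# Existence of groups of type M(22), M(23), M(24)
-/

set_option autoImplicit false
set_option linter.all false
set_option maxRecDepth 10000

namespace H93.Ex

open Cfsg H92.Tri H92.Pair2 H92.Pair0 H34.IsoRow
open H35.TCFi22C (Lt mm extra)
open H93.Tri.L23 (G4 G3 D4 D3)

/-- the central quotient of the group generated by the neighbours -/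
theorem exists_pi_gen {G Y : Type*} [Group G] [Finite G] [Group Y] {D : Set G} {t z : G} {M : Subgroup G} (hD : Tri D) (h1 : (1 : G) ∉ D)
    (hgen : Subgroup.closure D = ⊤) (hM : M = Subgroup.centralizer ({t} : Set G))
    (π0 : ↥M →* Y) (hsurj : Function.Surjective π0) (hker : ∀ x : ↥M, π0 x = 1 ↔ (x : G) = 1 ∨ (x : G) = t)
    (hz : z ∈ D) (hzt : z ≠ t) (hcz : Commute t z) (hY : IsSimpleGroup Y) (hYZ : Subgroup.center Y = ⊥) {D' : Set Y}
    (ht : t ∈ D) (hS : ∀ S : Set Y, Tri S → Subgroup.closure S = ⊤ → S \ {1} = D') :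
    ∃ e : (↥(Subgroup.closure (C D t)) ⧸ Subgroup.center ↥(Subgroup.closure (C D t))) ≃* Y, e '' (bar D t) = D' := by
  have hMt : ∀ x ∈ M, x * t = t * x := by
    intro x hx
    rw [hM, Subgroup.mem_centralizer_singleton_iff] at hx
    exact hx
  have hKM : Subgroup.closure (C D t) ≤ M := by
    rw [Subgroup.closure_le]
    intro x hx
    rw [SetLike.mem_coe, hM, Subgroup.mem_centralizer_singleton_iff]
    exact hx.2.2.symm.eq
  set π : ↥(Subgroup.closure (C D t)) →* Y := π0.comp (Subgroup.inclusion hKM) with hπ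
  have hKn : ∀ g ∈ M, ∀ x ∈ Subgroup.closure (C D t), g * x * g⁻¹ ∈ Subgroup.closure (C D t) := by
    intro g hg x hx
    have h2 : (Subgroup.closure (C D t)).map (MulAut.conj g).toMonoidHom ≤ Subgroup.closure (C D t) := by
      rw [MonoidHom.map_closure, Subgroup.closure_le]
      rintro _ ⟨y, hy, rfl⟩
      apply Subgroup.subset_closure
      show g * y * g⁻¹ ∈ C D t
      refine ⟨conj_closure hD (by rw [hgen]; trivial) hy.1, ?_, ?_⟩
      · intro h3
        apply hy.2.1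
        have h4 : y = g⁻¹ * t * g := by rw [← h3]; group
        rw [h4, mul_assoc, ← hMt g hg]; group
      · have h3 : g * t * g⁻¹ = t := by rw [hMt g hg]; group
        have h4 : Commute (g * t * g⁻¹) (g * y * g⁻¹) := by
          have := hy.2.2.map (MulAut.conj g).toMonoidHom
          exact this
        rwa [h3] at h4
    exact h2 ⟨x, hx, rfl⟩
  have hrn : π.range.Normal := by
    refine ⟨?_⟩
    rintro _ ⟨x, rfl⟩ y
    obtain ⟨g, rfl⟩ := hsurj y
    refine ⟨⟨g * x * (g : G)⁻¹, hKn g g.2 x x.2⟩, ?_⟩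
    show π0 _ = π0 g * π0 _ * (π0 g)⁻¹
    rw [← map_inv, ← map_mul, ← map_mul]
    rfl
  have hzC : z ∈ C D t := ⟨hz, hzt, hcz⟩
  have hzK : z ∈ Subgroup.closure (C D t) := Subgroup.subset_closure hzC
  have hne1 : ∀ x (hx : x ∈ C D t), π ⟨x, Subgroup.subset_closure hx⟩ ≠ 1 := by
    intro x hx h2
    have h3 := (hker ⟨x, hKM (Subgroup.subset_closure hx)⟩).1 h2
    rcases h3 with h4 | h4
    · have h5 : x = 1 := h4
      exact h1 (h5 ▸ hx.1)
    · exact hx.2.1 h4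
  have hrt : π.range = ⊤ := by
    rcases hrn.eq_bot_or_eq_top with h | h
    · exfalso
      have h2 : π ⟨z, hzK⟩ ∈ π.range := ⟨_, rfl⟩
      rw [h, Subgroup.mem_bot] at h2
      exact hne1 z hzC h2
    · exact h
  have hπs : Function.Surjective π := MonoidHom.range_eq_top.1 hrt
  have hπk : π.ker = Subgroup.center ↥(Subgroup.closure (C D t)) := by
    ext x
    rw [MonoidHom.mem_ker]
    constructor
    · intro h2
      rw [Subgroup.mem_center_iff]
      intro g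
      have h3 := (hker ⟨x, hKM x.2⟩).1 h2
      rcases h3 with h4 | h4
      · have h5 : x = 1 := Subtype.ext h4
        rw [h5, one_mul, mul_one]
      · apply Subtype.ext
        have h5 : (x : G) = t := h4
        change (g : G) * x = x * g
        rw [h5]; exact hMt g (hKM g.2)
    · intro h2
      have h3 : π x ∈ Subgroup.center Y := by
        rw [Subgroup.mem_center_iff]
        intro y
        obtain ⟨g, rfl⟩ := hπs y
        rw [← map_mul, ← map_mul, Subgroup.mem_center_iff.1 h2 g]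
      rw [hYZ, Subgroup.mem_bot] at h3
      exact h3
  refine ⟨(QuotientGroup.quotientMulEquivOfEq hπk.symm).trans (QuotientGroup.quotientKerEquivOfSurjective π hπs), ?_⟩
  have himg : ((QuotientGroup.quotientMulEquivOfEq hπk.symm).trans (QuotientGroup.quotientKerEquivOfSurjective π hπs)) '' (bar D t) =
      π '' (H92.Step.lf D t (Subgroup.closure (C D t))) := by
    ext y
    constructor
    · rintro ⟨_, ⟨x, hx, rfl⟩, rfl⟩
      exact ⟨x, hx, rfl⟩
    · rintro ⟨x, hx, rfl⟩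
      exact ⟨_, ⟨x, hx, rfl⟩, rfl⟩
  rw [himg]
  have h2 := hS _ (H92.Lev.tri_image π (H92.Step.tri_lf hD ht)) (by
    rw [← MonoidHom.map_closure, H92.Step.closure_lf rfl, ← MonoidHom.range_eq_map, hrt])
  rw [← h2]
  symm
  rw [sdiff_eq_left, Set.disjoint_singleton_right]
  rintro ⟨x, hx, h3⟩
  exact hne1 x hx h3

theorem image_symm {A B : Type*} [Group A] [Group B] (e : A ≃* B) {S : Set A} {T : Set B} (h : e '' S = T) : e.symm '' T = S := by
  rw [← h]
  ext x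
  constructor
  · rintro ⟨_, ⟨y, hy, rfl⟩, rfl⟩
    rw [e.symm_apply_apply]; exact hy
  · intro hx
    exact ⟨e x, ⟨x, hx, rfl⟩, e.symm_apply_apply x⟩

/-! ### Fi22 -/

theorem head22 : HeadOK D2 H92.Expl22.t := by
  have hfin : Finite G2 := H35.Fi22Main.fin
  have hK : Fintype.card H17.F4 = 4 := rfl
  have hgen := H92.Expl0.gen H92.Expl22.tri H92.Expl22.one_notMem H92.Expl22.closure_D H92.Expl22.t_mem H92.Expl22.HH_eq H34.U62.main
    H92.Expl22.c_mem H92.Expl22.c_ne H92.Expl22.comm_c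
    (H6.SUGenC.isSimpleGroup (F := H17.F4) (q := 2) (by rw [hK]; rfl) 6 (by norm_num) (by norm_num))
  obtain ⟨-, ⟨e⟩, -⟩ := H34.U62.main
  have key : ∀ K : Subgroup G2, H34.U62.HH = K → Nonempty (↥K ⧸ Subgroup.center ↥K ≃* PSU 6 H17.F4 2) := by
    rintro K rfl; exact ⟨e⟩
  exact ⟨H17.F4, inferInstance, inferInstance, rfl, key _ hgen⟩

theorem type22 : IsOfTypeM22 G2 D2 := by
  rw [type22_iff]
  obtain ⟨d, c, hd, hc, hdc, hp⟩ := main22
  refine ⟨H92.Expl22.center, d, hd, c, hc, hdc, ?_, hp⟩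
  obtain ⟨g, hg⟩ := H92.Expl22.mem_iff.1 hd
  exact headOK_conj (fun g d hd => H92.Expl22.conj_mem hd g) head22 hg

/-! ### Fi23 -/

theorem inner23 : IsOfTypeM22 (↥(Subgroup.closure (C D3 H35.FiClass23.t)) ⧸ Subgroup.center ↥(Subgroup.closure (C D3 H35.FiClass23.t)))
    (bar D3 H35.FiClass23.t) := by
  have hfin3 : Finite G3 := H35.Fi23Main.fin
  have hH := H92.Expl23.H1_eq
  obtain ⟨π, hπ, hπk⟩ := cover_hom hH H92.Expl23.t_ne H34.Fi23D.main
  have h1 : {z | z ∈ D3 ∧ z ≠ H35.FiClass23.t ∧ Commute H35.FiClass23.t z}.Nonempty := by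
    apply Set.nonempty_of_ncard_ne_zero
    rw [H35.FiClass23.D_valency H92.Expl23.t_mem]; norm_num
  obtain ⟨z, hz, hzt, hcz⟩ := h1
  obtain ⟨e, he⟩ := exists_pi_gen (D' := D2) H92.Expl23.tri H92.Expl23.one_notMem H92.Expl23.closure_D hH π hπ hπk hz hzt hcz
    H35.Fi22Main.simple H92.Expl22.center H92.Expl23.t_mem (fun S hS hcl => H92.Expl22.diff_eq hS hcl)
  have h2 := type22_congr e.symm type22
  rwa [image_symm e he] at h2

theorem pair23 {Θ : PG mm extra →* G3} {d c : G3} (hd : d ∈ D3) (hc : c ∈ D3) (hdc : ¬ Commute d c) (hi : Function.Injective Θ)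
    (hr : Θ.range = Subgroup.centralizer ({d, c} : Set G3)) : PairOK D3 d c 7 (fun c₃ => -c₃) := by
  have hfin3 : Finite G3 := H35.Fi23Main.fin
  refine ⟨2, by decide, H93.Six.Q7, H93.Six.nd_Q7, H93.Six.polarGramDet_Q7, ?_⟩
  obtain ⟨e1⟩ := H92.Orth7.iso7 H93.Six.Q7 H93.Six.nd_Q7 (c := 2) (by decide) H93.Six.polarGramDet_Q7
  obtain ⟨e2⟩ := H93.Tri.O7.pg_iso
  have hL := centralizer_pair (by norm_num) nl3 H92.Expl23.closure_D H92.Expl23.center hd hc hdc
  have hcen : Subgroup.center ↥(Subgroup.closure (H92.Tri.C D3 d ∩ H92.Tri.C D3 c)) = ⊥ := by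
    rw [hL]
    exact H92.Norm3b.center_pair (by norm_num) nl3 H92.Expl23.closure_D H92.Expl23.center hd hc hdc
  have e3 : ↥(Subgroup.closure (H92.Tri.C D3 d ∩ H92.Tri.C D3 c)) ≃* PG mm extra :=
    (MulEquiv.subgroupCongr (hL.trans hr.symm)).trans (MonoidHom.ofInjective hi).symm
  have e4 : (↥(Subgroup.closure (H92.Tri.C D3 d ∩ H92.Tri.C D3 c)) ⧸ Subgroup.center ↥(Subgroup.closure (H92.Tri.C D3 d ∩ H92.Tri.C D3 c))) ≃*
      ↥(Subgroup.closure (H92.Tri.C D3 d ∩ H92.Tri.C D3 c)) := (QuotientGroup.quotientMulEquivOfEq hcen).trans QuotientGroup.quotientBot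
  exact ⟨((e4.trans e3).trans e2).trans e1.symm⟩

theorem type23 : IsOfTypeM23 G3 D3 := by
  rw [type23_iff]
  obtain ⟨Θ, d, c, hd, hc, hdc, hΘi, hΘr, -⟩ := main23
  refine ⟨H92.Expl23.center, d, hd, c, hc, hdc, ?_, pair23 hd hc hdc hΘi hΘr⟩
  obtain ⟨g, hg⟩ := H92.Expl23.mem_iff.1 hd
  exact inner22_conj cl3 inner23 hg

/-! ### Fi24 -/

theorem inner24 : IsOfTypeM23 (↥(Subgroup.closure (C D4 H92.Expl24.t)) ⧸ Subgroup.center ↥(Subgroup.closure (C D4 H92.Expl24.t)))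
    (bar D4 H92.Expl24.t) := by
  have hfin4 : Finite G4 := H35.Fi24Main.fin
  obtain ⟨π0, hs, hk⟩ := H92.Expl24.exists_pi
  have h1 : {z | z ∈ D4 ∧ z ≠ H92.Expl24.t ∧ Commute H92.Expl24.t z}.Nonempty := by
    apply Set.nonempty_of_ncard_ne_zero
    rw [H35.FiClass24.D_valency H92.Expl24.t_mem]; norm_num
  obtain ⟨z, hz, hzt, hcz⟩ := h1
  obtain ⟨e, he⟩ := exists_pi_gen (D' := D3) H92.Expl24.tri H92.Expl24.one_notMem H92.Expl24.closure_D H35.FiClass24.centralizer_l.symm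
    π0 hs hk hz hzt hcz H35.Fi23Main.simple H92.Expl23.center H92.Expl24.t_mem (fun S hS hcl => H92.Expl24.diff_eq23 hS hcl)
  have h2 := type23_congr e.symm type23
  rwa [image_symm e he] at h2

theorem type24 : IsOfTypeM24 G4 D4 := by
  have hfin4 : Finite G4 := H35.Fi24Main.fin
  refine ⟨H92.Expl24.center, H35.Fi24Base.gP .l, H35.FiClass24.letter_mem .l, H35.Fi24Base.gP .k, H35.FiClass24.letter_mem .k,
    H93.Tri.L24.lk_nc, inner24, ?_⟩
  change ∃ (N : Subgroup (↥H93.Tri.L24.L ⧸ Subgroup.center ↥H93.Tri.L24.L)) (_ : N.Normal),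
      Nonempty (N ≃* POmega (ZMod 3) (quadFormPlus 4 (ZMod 3))) ∧
      Nonempty ((↥H93.Tri.L24.L ⧸ Subgroup.center ↥H93.Tri.L24.L) ⧸ N ≃* Equiv.Perm (Fin 3))
  have hcen : Subgroup.center ↥H93.Tri.L24.L = ⊥ := by
    have := H92.Norm3b.center_pair (by norm_num) H93.Tri.L24.nl H92.Expl24.closure_D H92.Expl24.center (H35.FiClass24.letter_mem .l)
      (H35.FiClass24.letter_mem .k) H93.Tri.L24.lk_nc
    rwa [← H93.Tri.L24.L_eq] at this
  have e4 : (↥H93.Tri.L24.L ⧸ Subgroup.center ↥H93.Tri.L24.L) ≃* ↥H93.Tri.L24.L :=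
    (QuotientGroup.quotientMulEquivOfEq hcen).trans QuotientGroup.quotientBot
  obtain ⟨φ, hφs, hker⟩ := H93.Tri.L24.exists_phi
  obtain ⟨e0⟩ := H93.Tri.L24.S_iso.1
  have eK : φ.ker ≃* H93.Tri.O8 :=
    ((MulEquiv.subgroupCongr hker).trans (Subgroup.subgroupOfEquivOfLe (inf_le_left.trans H93.Tri.L24.S_le))).trans e0
  set ψ : (↥H93.Tri.L24.L ⧸ Subgroup.center ↥H93.Tri.L24.L) →* Equiv.Perm (Fin 3) := φ.comp e4.toMonoidHom with hψ
  have hψs : Function.Surjective ψ := hφs.comp e4.surjective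
  have hmap : ψ.ker.map (e4 : (↥H93.Tri.L24.L ⧸ Subgroup.center ↥H93.Tri.L24.L) →* ↥H93.Tri.L24.L) = φ.ker := by
    ext y
    constructor
    · rintro ⟨x, hx, rfl⟩; exact hx
    · intro hy
      obtain ⟨x, rfl⟩ := e4.surjective y
      exact ⟨x, hy, rfl⟩
  refine ⟨ψ.ker, inferInstance, ⟨?_⟩, ⟨QuotientGroup.quotientKerEquivOfSurjective ψ hψs⟩⟩
  exact ((Subgroup.equivMapOfInjective ψ.ker _ e4.injective).trans (MulEquiv.subgroupCongr hmap)).trans eK

theorem main : (∃ (X : Type) (_ : Group X) (_ : Finite X) (E : Set X), Cfsg.IsThreeTranspositionClass E ∧ Cfsg.IsPrimitiveUnderConj E ∧ Cfsg.IsOfTypeM22 X E) ∧ (∃ (X : Type) (_ : Group X) (_ : Finite X) (E : Set X), Cfsg.IsThreeTranspositionClass E ∧ Cfsg.IsPrimitiveUnderConj E ∧ Cfsg.IsOfTypeM23 X E) ∧ (∃ (X : Type) (_ : Group X) (_ : Finite X) (E : Set X), Cfsg.IsThreeTranspositionClass E ∧ Cfsg.IsPrimitiveUnderConj E ∧ Cfsg.IsOfTypeM24 X E) := by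
  have hfin2 : Finite G2 := H35.Fi22Main.fin
  have hfin3 : Finite G3 := H35.Fi23Main.fin
  have hfin4 : Finite G4 := H35.Fi24Main.fin
  have c2 : ∀ g : G2, ∀ d ∈ D2, g * d * g⁻¹ ∈ D2 := fun g d hd => H92.Expl22.conj_mem hd g
  have c4 : ∀ g : G4, ∀ d ∈ D4, g * d * g⁻¹ ∈ D4 := fun g d hd => H92.Expl24.conj_mem hd g
  have p2 : IsPrimitiveUnderConj D2 := prim_of_LG H92.Expl22.lg c2
  have p3 : IsPrimitiveUnderConj D3 := prim_of_LG H92.Expl23.lg cl3
  have p4 : IsPrimitiveUnderConj D4 := prim_of_LG H92.Expl24.lg c4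
  have g2 : IsThreeTranspositionGroup D2 := ⟨H92.Expl23.set_of_tri H92.Expl22.tri H92.Expl22.one_notMem, c2, H92.Expl22.closure_D⟩
  have g3 : IsThreeTranspositionGroup D3 := ⟨H92.Expl23.set_of_tri H92.Expl23.tri H92.Expl23.one_notMem, cl3, H92.Expl23.closure_D⟩
  have g4 : IsThreeTranspositionGroup D4 := ⟨H92.Expl23.set_of_tri H92.Expl24.tri H92.Expl24.one_notMem, c4, H92.Expl24.closure_D⟩
  exact ⟨⟨G2, inferInstance, hfin2, D2, H90.ThreeTransI.class_of_prim g2 p2, p2, type22⟩,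
    ⟨G3, inferInstance, hfin3, D3, H90.ThreeTransI.class_of_prim g3 p3, p3, type23⟩,
    ⟨G4, inferInstance, hfin4, D4, H90.ThreeTransI.class_of_prim g4 p4, p4, type24⟩⟩

end H93.Ex
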