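import Mathlib
import Cfsg.Prelude.Def_FischerSpaces
import Cfsg.Agent.Lib.H92.TypeNum
import Cfsg.Agent.Lib.H92.Norm3
import Cfsg.Agent.Lib.H7.OmegaIso

/-!
# The types M(22), M(23) under isomorphisms; primitivity
-/

set_option autoImplicit false
set_option linter.all false

namespace H93.Ex

open Cfsg H92.Tri H92.Lev H92.Types H92.Geo

/-- isomorphism of the central quotients of corresponding subgroups -/
theorem exists_quot {A B : Type*} [Group A] [Group B] (e : A ≃* B) {U : Subgroup A} {V : Subgroup B} (h : U.map (e : A →* B) = V) :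
    ∃ ε : (↥U ⧸ Subgroup.center ↥U) ≃* (↥V ⧸ Subgroup.center ↥V),
      ∀ (x : A) (hx : x ∈ U) (hy : e x ∈ V), ε (QuotientGroup.mk ⟨x, hx⟩) = QuotientGroup.mk ⟨e x, hy⟩ := by
  subst h
  refine ⟨H7.OmegaIso.quotCenterCongr (Subgroup.equivMapOfInjective U (e : A →* B) e.injective), ?_⟩
  intro x hx hy
  rfl

theorem image_C {A B : Type*} [Group A] [Group B] (e : A ≃* B) (D : Set A) (d : A) :
    (e : A →* B) '' (C D d) = C (e '' D) (e d) := by
  ext y
  constructor
  · rintro ⟨x, ⟨h1, h2, h3⟩, rfl⟩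
    exact ⟨⟨x, h1, rfl⟩, fun h => h2 (e.injective h), h3.map (e : A →* B)⟩
  · rintro ⟨⟨x, h1, rfl⟩, h2, h3⟩
    refine ⟨x, ⟨h1, fun h => h2 (congrArg e h), ?_⟩, rfl⟩
    have h4 := h3.map (e.symm : B →* A)
    simpa using h4

theorem map_closure_C {A B : Type*} [Group A] [Group B] (e : A ≃* B) (D : Set A) (d : A) :
    (Subgroup.closure (C D d)).map (e : A →* B) = Subgroup.closure (C (e '' D) (e d)) := by
  rw [MonoidHom.map_closure, image_C]

theorem map_closure_CC {A B : Type*} [Group A] [Group B] (e : A ≃* B) (D : Set A) (d c : A) :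
    (Subgroup.closure (C D d ∩ C D c)).map (e : A →* B) = Subgroup.closure (C (e '' D) (e d) ∩ C (e '' D) (e c)) := by
  rw [MonoidHom.map_closure, Set.image_inter (show Function.Injective (e : A →* B) from e.injective), image_C, image_C]

/-- the images of the neighbours in the central quotient -/
def bar {A : Type*} [Group A] (D : Set A) (d : A) : Set (↥(Subgroup.closure (C D d)) ⧸ Subgroup.center ↥(Subgroup.closure (C D d))) :=
  (QuotientGroup.mk : ↥(Subgroup.closure (C D d)) → _) '' {x : ↥(Subgroup.closure (C D d)) | (x : A) ∈ C D d}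

theorem exists_bar {A B : Type*} [Group A] [Group B] (e : A ≃* B) (D : Set A) (d : A) :
    ∃ ε : (↥(Subgroup.closure (C D d)) ⧸ Subgroup.center ↥(Subgroup.closure (C D d))) ≃*
      (↥(Subgroup.closure (C (e '' D) (e d))) ⧸ Subgroup.center ↥(Subgroup.closure (C (e '' D) (e d)))),
      ε '' (bar D d) = bar (e '' D) (e d) := by
  obtain ⟨ε, hε⟩ := exists_quot e (map_closure_C e D d)
  refine ⟨ε, ?_⟩
  ext y
  constructor
  · rintro ⟨_, ⟨⟨x, hx⟩, hx2, rfl⟩, rfl⟩
    have h1 : e x ∈ C (e '' D) (e d) := by rw [← image_C]; exact ⟨x, hx2, rfl⟩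
    rw [hε x hx (Subgroup.subset_closure h1)]
    exact ⟨⟨e x, _⟩, h1, rfl⟩
  · rintro ⟨⟨z, hz⟩, hz2, rfl⟩
    have hz3 : z ∈ (e : A →* B) '' (C D d) := by rw [image_C]; exact hz2
    obtain ⟨x, hx, rfl⟩ := hz3
    refine ⟨_, ⟨⟨x, Subgroup.subset_closure hx⟩, hx, rfl⟩, ?_⟩
    exact hε x _ _

/-- the pair part of the types M(22) and M(23) -/
def PairOK {A : Type*} [Group A] (D : Set A) (d c : A) (n : ℕ) (μ : ZMod 3 → ZMod 3) : Prop :=
  ∃ c₃ : ZMod 3, c₃ ≠ 0 ∧ IsProjReflectionGroupModThree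
      (↥(Subgroup.closure (C D d ∩ C D c)) ⧸ Subgroup.center ↥(Subgroup.closure (C D d ∩ C D c))) n (μ c₃) c₃

theorem pairOK_congr {A B : Type*} [Group A] [Group B] (e : A ≃* B) {D : Set A} {d c : A} {n : ℕ} {μ : ZMod 3 → ZMod 3}
    (h : PairOK D d c n μ) : PairOK (e '' D) (e d) (e c) n μ := by
  obtain ⟨c₃, h0, Q, h1, h2, ⟨e1⟩⟩ := h
  obtain ⟨ε, -⟩ := exists_quot e (map_closure_CC e D d c)
  exact ⟨c₃, h0, Q, h1, h2, ⟨ε.symm.trans e1⟩⟩

/-- the first part of the type M(22) -/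
def HeadOK {A : Type*} [Group A] (D : Set A) (d : A) : Prop :=
  ∃ (F : Type) (_ : Field F) (_ : Fintype F), Fintype.card F = 4 ∧
      Nonempty (↥(Subgroup.closure (C D d)) ⧸ Subgroup.center ↥(Subgroup.closure (C D d)) ≃* PSU 6 F 2)

theorem headOK_congr {A B : Type*} [Group A] [Group B] (e : A ≃* B) {D : Set A} {d : A} (h : HeadOK D d) : HeadOK (e '' D) (e d) := by
  obtain ⟨F, i1, i2, h1, ⟨e1⟩⟩ := h
  obtain ⟨ε, -⟩ := exists_quot e (map_closure_C e D d)
  exact ⟨F, i1, i2, h1, ⟨ε.symm.trans e1⟩⟩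

theorem type22_iff {A : Type*} [Group A] {D : Set A} : IsOfTypeM22 A D ↔
    Subgroup.center A = ⊥ ∧ ∃ d ∈ D, ∃ c ∈ D, ¬ Commute d c ∧ HeadOK D d ∧ PairOK D d c 6 (fun _ => 1) := Iff.rfl

theorem type23_iff {A : Type*} [Group A] {D : Set A} : IsOfTypeM23 A D ↔
    Subgroup.center A = ⊥ ∧ ∃ d ∈ D, ∃ c ∈ D, ¬ Commute d c ∧
      IsOfTypeM22 (↥(Subgroup.closure (C D d)) ⧸ Subgroup.center ↥(Subgroup.closure (C D d))) (bar D d) ∧ PairOK D d c 7 (fun c₃ => -c₃) := Iff.rfl

theorem center_bot_of_iso {H K : Type*} [Group H] [Group K] (e : H ≃* K) (h : Subgroup.center H = ⊥) : Subgroup.center K = ⊥ := by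
  rw [eq_bot_iff]
  intro z hz
  have h1 : e.symm z ∈ Subgroup.center H := by
    rw [Subgroup.mem_center_iff] at hz ⊢
    intro g
    apply e.injective
    rw [map_mul, map_mul, e.apply_symm_apply]
    exact hz (e g)
  rw [h, Subgroup.mem_bot] at h1
  rw [Subgroup.mem_bot]
  exact (map_eq_one_iff e.symm e.symm.injective).1 h1

theorem comm_congr {A B : Type*} [Group A] [Group B] (e : A ≃* B) {d c : A} (h : ¬ Commute d c) : ¬ Commute (e d) (e c) := by
  intro h1
  apply h
  have h4 := h1.map (e.symm : B →* A)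
  simpa using h4

theorem type22_congr {A B : Type*} [Group A] [Group B] (e : A ≃* B) {D : Set A} (h : IsOfTypeM22 A D) : IsOfTypeM22 B (e '' D) := by
  rw [type22_iff] at h ⊢
  obtain ⟨h1, d, hd, c, hc, h2, h3, h4⟩ := h
  exact ⟨center_bot_of_iso e h1, e d, ⟨d, hd, rfl⟩, e c, ⟨c, hc, rfl⟩, comm_congr e h2, headOK_congr e h3, pairOK_congr e h4⟩

theorem type23_congr {A B : Type*} [Group A] [Group B] (e : A ≃* B) {D : Set A} (h : IsOfTypeM23 A D) : IsOfTypeM23 B (e '' D) := by
  rw [type23_iff] at h ⊢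
  obtain ⟨h1, d, hd, c, hc, h2, h3, h4⟩ := h
  refine ⟨center_bot_of_iso e h1, e d, ⟨d, hd, rfl⟩, e c, ⟨c, hc, rfl⟩, comm_congr e h2, ?_, pairOK_congr e h4⟩
  obtain ⟨ε, hε⟩ := exists_bar e D d
  have := type22_congr ε h3
  rwa [hε] at this

/-- conjugation does not matter -/
theorem image_conj {A : Type*} [Group A] {D : Set A} (hD : ∀ g : A, ∀ d ∈ D, g * d * g⁻¹ ∈ D) (g : A) : (MulAut.conj g) '' D = D := by
  ext y
  constructor
  · rintro ⟨x, hx, rfl⟩; exact hD g x hx
  · intro hy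
    refine ⟨g⁻¹ * y * g⁻¹⁻¹, hD _ _ hy, ?_⟩
    change g * (g⁻¹ * y * g⁻¹⁻¹) * g⁻¹ = y
    group

theorem headOK_conj {A : Type*} [Group A] {D : Set A} (hD : ∀ g : A, ∀ d ∈ D, g * d * g⁻¹ ∈ D) {d d' g : A} (h : HeadOK D d)
    (hg : g * d * g⁻¹ = d') : HeadOK D d' := by
  have := headOK_congr (MulAut.conj g) h
  rw [image_conj hD, MulAut.conj_apply, hg] at this
  exact this

theorem inner22_conj {A : Type*} [Group A] {D : Set A} (hD : ∀ g : A, ∀ d ∈ D, g * d * g⁻¹ ∈ D) {d d' g : A}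
    (h : IsOfTypeM22 (↥(Subgroup.closure (C D d)) ⧸ Subgroup.center ↥(Subgroup.closure (C D d))) (bar D d))
    (hg : g * d * g⁻¹ = d') :
    IsOfTypeM22 (↥(Subgroup.closure (C D d')) ⧸ Subgroup.center ↥(Subgroup.closure (C D d'))) (bar D d') := by
  obtain ⟨ε, hε⟩ := exists_bar (MulAut.conj g) D d
  have h2 := type22_congr ε h
  rw [hε, image_conj hD, MulAut.conj_apply, hg] at h2
  exact h2

/-- primitivity -/
theorem prim_of_LG {A : Type*} [Group A] {n : ℕ} {D : Set A} (h : LG (n + 1) D) (hcl : ∀ g : A, ∀ d ∈ D, g * d * g⁻¹ ∈ D) :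
    IsPrimitiveUnderConj D := by
  have hL := h.lev
  have ht := hL.tri
  obtain ⟨x0, hx0⟩ := hL.nonempty
  refine ⟨?_, ?_, ?_⟩
  · intro a ha b hb
    obtain ⟨g, -, hg⟩ := hL.trans ha hb
    exact ⟨g, hg⟩
  · obtain ⟨y, hy⟩ := (hL.C hx0).nonempty
    exact ⟨x0, hx0, y, hy.1, fun e => hy.2.1 e.symm⟩
  · intro B hB hblock
    by_cases hs : B.Subsingleton
    · exact Or.inl hs
    right
    rw [Set.not_subsingleton_iff] at hs
    obtain ⟨x, hx, y, hy, hxy⟩ := hs
    -- elements moving a member of B into B stabilize B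
    have hst : ∀ g : A, ∀ z ∈ B, g * z * g⁻¹ ∈ B → ∀ w ∈ B, g * w * g⁻¹ ∈ B := by
      intro g z hz hgz w hw
      rcases hblock g with h1 | h1
      · rw [← h1]; exact ⟨w, hw, rfl⟩
      · exact absurd hgz (fun h2 => Set.disjoint_left.1 h1 ⟨z, hz, rfl⟩ h2)
    have hpart : ∀ z ∈ B, ∃ w ∈ B, w ≠ z ∧ (Commute z w ↔ Commute x y) := by
      intro z hz
      obtain ⟨g, -, hg⟩ := hL.trans (hB hx) (hB hz)
      refine ⟨g * y * g⁻¹, hst g x hx (by rw [hg]; exact hz) y hy, ?_, ?_⟩
      · intro e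
        apply hxy
        rw [← hg] at e
        exact (mul_left_cancel (mul_right_cancel e)).symm
      · rw [← hg]
        constructor
        · intro h1
          have h2 := h1.map (MulAut.conj g⁻¹).toMonoidHom
          have e1 : ∀ u : A, (MulAut.conj g⁻¹).toMonoidHom (g * u * g⁻¹) = u := by
            intro u
            change g⁻¹ * (g * u * g⁻¹) * g⁻¹⁻¹ = u
            group
          rwa [e1, e1] at h2
        · intro h1
          exact h1.map (MulAut.conj g).toMonoidHom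
    by_cases hc : Commute x y
    · -- commuting case
      have hnb : ∀ z ∈ B, ∀ w ∈ C D z, w ∈ B := by
        intro z hz w hw
        obtain ⟨w0, hw0, hne, hcm⟩ := hpart z hz
        have hw0C : w0 ∈ C D z := ⟨hB hw0, hne, hcm.2 hc⟩
        obtain ⟨g, hg, hgw⟩ := (hL.C (hB hz)).trans hw0C hw
        have hgz : g * z * g⁻¹ = z := by
          have : Commute g z := by
            have h2 : Subgroup.closure (C D z) ≤ Subgroup.centralizer ({z} : Set A) := by
              rw [Subgroup.closure_le]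
              intro u hu
              change u ∈ Subgroup.centralizer ({z} : Set A)
              rw [Subgroup.mem_centralizer_singleton_iff]
              exact hu.2.2.eq.symm
            have h3 := h2 hg
            rw [Subgroup.mem_centralizer_singleton_iff] at h3
            exact h3
          rw [this.eq, mul_inv_cancel_right]
        rw [← hgw]
        exact hst g z hz (by rw [hgz]; exact hz) w0 hw0
      apply Set.Subset.antisymm hB
      intro w hw
      obtain ⟨z, hz, h1, h2⟩ := h.2.1 x (hB hx) w hw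
      by_cases hzx : z = x
      · by_cases hwx : w = x
        · rw [hwx]; exact hx
        · exact hnb x hx w ⟨hw, hwx, by rw [← hzx]; exact h2⟩
      · have hzB : z ∈ B := hnb x hx z ⟨hz, hzx, h1.symm⟩
        by_cases hwz : w = z
        · rw [hwz]; exact hzB
        · exact hnb z hzB w ⟨hw, hwz, h2⟩
    · have hnb : ∀ z ∈ B, ∀ w ∈ D, ¬ Commute z w → w ∈ B := by
        intro z hz w hw hzw
        obtain ⟨w0, hw0, hne, hcm⟩ := hpart z hz
        obtain ⟨g, hg, hgw⟩ := h.geo.rank3 z (hB hz) w0 (hB hw0) w hw (fun e => hc (hcm.1 e.symm)) (fun e => hzw e.symm)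
        have hgz : Commute g z := (comm_of_mem_closure hg)
        rw [← hgw]
        exact hst g z hz (by rw [hgz.eq, mul_inv_cancel_right]; exact hz) w0 hw0
      apply Set.Subset.antisymm hB
      intro w hw
      by_cases hxw : Commute x w
      · by_cases hwx : w = x
        · rw [hwx]; exact hx
        · obtain ⟨z, hz, h1, h2⟩ := hL.common_partner (hB hx) hw hxw
          exact hnb z (hnb x hx z hz (fun e => h1 e.symm)) w hw h2
      · exact hnb x hx w hw hxw

end H93.Ex
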