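import Cfsg.Agent.Lib.H34.O73Nrm
import Cfsg.Prelude.Def_FischerSpaces
import Cfsg.Agent.Lib.H17.OrthMat
import Cfsg.Agent.Lib.H17.OrthSO
import Cfsg.Agent.Lib.H48.QuadStd

/-!
# The reflection group in dimension six inside the negated reflections in dimension seven
-/

set_option autoImplicit false
set_option maxRecDepth 100000
set_option linter.all false

namespace H93.Six

open H34.O73 Matrix QuadraticMap

/-- the vector of `b` -/
def v : VV := lv 0 0 1 0 0 2 0

def ei : ix → Fin 7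
  | .inl _ => 0
  | .inr (.inl i) => ⟨i + 1, by omega⟩
  | .inr (.inr i) => ⟨i + 4, by omega⟩

def EmT : Fin 7 → Fin 6 → F3 := ![![1, 0, 0, 0, 0, 0], ![0, 0, 0, 1, 1, 1], ![0, 0, 1, 0, 0, 0], ![0, 1, 0, 0, 1, 2], ![0, 0, 0, 1, 2, 2],
  ![0, 0, 1, 0, 0, 0], ![0, 1, 0, 0, 2, 1]]

def PmT : Fin 6 → Fin 7 → F3 := ![![1, 0, 0, 0, 0, 0, 0], ![0, 0, 0, 2, 0, 0, 2], ![0, 0, 2, 0, 0, 2, 0], ![0, 2, 0, 0, 2, 0, 0],
  ![0, 1, 0, 1, 2, 0, 2], ![0, 1, 0, 2, 2, 0, 1]]

def PvT : Fin 7 → Fin 7 → F3 := ![![0, 0, 0, 0, 0, 0, 0], ![0, 0, 0, 0, 0, 0, 0], ![0, 0, 2, 0, 0, 1, 0], ![0, 0, 0, 0, 0, 0, 0],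
  ![0, 0, 0, 0, 0, 0, 0], ![0, 0, 1, 0, 0, 2, 0], ![0, 0, 0, 0, 0, 0, 0]]

def Em : Matrix ix (Fin 6) F3 := Matrix.of fun i j => EmT (ei i) j
def Pm : Matrix (Fin 6) ix F3 := Matrix.of fun i j => PmT i (ei j)
def Pv : Matrix ix ix F3 := Matrix.of fun i j => PvT (ei i) (ei j)

theorem PE : Pm * Em = 1 := by decide +kernel
theorem EP : Em * Pm + Pv = 1 := by decide +kernel
theorem PPv : Pm * Pv = 0 := by decide +kernel
theorem PvE : Pv * Em = 0 := by decide +kernel
theorem PvPv : Pv * Pv = Pv := by decide +kernel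

/-- the standard form in dimension seven -/
noncomputable abbrev Q0 : QuadraticForm F3 VV := H48.QuadStd.qOdd 3 F3 1

theorem coe_Q0 : ⇑Q0 = Q := H48.QuadStd.coe_qOdd 3

/-- the form in dimension six -/
noncomputable def Q6 : QuadraticForm F3 (Fin 6 → F3) := Q0.comp (Matrix.toLin' Em)

theorem Q6_apply (z : Fin 6 → F3) : Q6 z = Q (Em *ᵥ z) := by
  rw [Q6, QuadraticMap.comp_apply, Matrix.toLin'_apply]
  exact congrFun coe_Q0 _

theorem polar_Q6 (x y : Fin 6 → F3) : polar (⇑Q6) x y = Bf (Em *ᵥ x) (Em *ᵥ y) := by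
  rw [polar, Bf, Q6_apply, Q6_apply, Q6_apply, Matrix.mulVec_add]

/-- the columns -/
theorem Em_single (j : Fin 6) : Em *ᵥ (Pi.single j 1) = fun i => Em i j := by
  rw [Matrix.mulVec_single_one]; rfl

theorem col_orth : ∀ j : Fin 6, Bf (fun i => Em i j) v = 0 := by decide +kernel

theorem gram : ∀ i j : Fin 6, Bf (fun k => Em k i) (fun k => Em k j) = if i = j then 2 else 0 := by decide +kernel

theorem Bf_symm (x y : VV) : Bf x y = Bf y x := by
  simp only [Bf, add_comm x y]; ring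

theorem Bf_add_right (x y z : VV) : Bf x (y + z) = Bf x y + Bf x z := by
  rw [Bf_symm, Bf_add_left, Bf_symm y, Bf_symm z]

/-- the linear functional `B(·, y)` -/
def Bl (y : VV) : VV →ₗ[F3] F3 where
  toFun x := Bf x y
  map_add' x z := Bf_add_left x z y
  map_smul' c x := Bf_smul_left c x y

theorem Em_orth (w : Fin 6 → F3) : Bf (Em *ᵥ w) v = 0 := by
  have h : (Bl v).comp (Matrix.toLin' Em) = 0 := by
    apply LinearMap.pi_ext'
    intro j
    apply LinearMap.ext_ring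
    change Bf (Em *ᵥ (Pi.single j 1)) v = 0
    rw [Em_single]
    exact col_orth j
  have := LinearMap.congr_fun h w
  rw [LinearMap.comp_apply, Matrix.toLin'_apply] at this
  exact this

theorem Pv_col : ∀ j : ix, (fun i => Pv i j) = Bf (Pi.single j 1) v • v := by decide +kernel

theorem Pv_apply (y : VV) : Pv *ᵥ y = Bf y v • v := by
  have h : Matrix.toLin' Pv = (Bl v).smulRight v := by
    apply LinearMap.pi_ext'
    intro j
    apply LinearMap.ext_ring
    change Matrix.toLin' Pv (Pi.single j 1) = Bf (Pi.single j 1) v • v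
    rw [Matrix.toLin'_apply, Matrix.mulVec_single_one]
    exact Pv_col j
  have := LinearMap.congr_fun h y
  rwa [Matrix.toLin'_apply] at this

theorem Em_Pm {x : VV} (hx : Bf x v = 0) : Em *ᵥ (Pm *ᵥ x) = x := by
  have h : (Em * Pm + Pv) *ᵥ x = x := by rw [EP, Matrix.one_mulVec]
  rw [Matrix.add_mulVec, ← Matrix.mulVec_mulVec, Pv_apply, hx, zero_smul, add_zero] at h
  exact h

theorem decomp (x : VV) : Em *ᵥ (Pm *ᵥ x) + Pv *ᵥ x = x := by
  rw [Matrix.mulVec_mulVec, ← Matrix.add_mulVec, EP, Matrix.one_mulVec]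

theorem Q_split (w : Fin 6 → F3) (y : VV) : Q (Em *ᵥ w + Pv *ᵥ y) = Q6 w + Q (Pv *ᵥ y) := by
  rw [Q_add, Q6_apply, Pv_apply, Bf_smul_right, Em_orth]
  ring

theorem sq_unit : ∀ s : F3, s ≠ 0 → s * s = 1 := by decide

noncomputable abbrev I6 := Cfsg.isometryGroup F3 (⇑Q6)

noncomputable def mat6 (g : I6) : Matrix (Fin 6) (Fin 6) F3 := ((g : GeneralLinearGroup (Fin 6) F3) : Matrix (Fin 6) (Fin 6) F3)

theorem mat6_one : mat6 1 = 1 := rfl
theorem mat6_mul (g h : I6) : mat6 (g * h) = mat6 g * mat6 h := rfl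

theorem det_ne (g : I6) : (mat6 g).det ≠ 0 := by
  intro h
  have h1 : (mat6 (g * g⁻¹)).det = 0 := by rw [mat6_mul, Matrix.det_mul, h, zero_mul]
  rw [mul_inv_cancel, mat6_one, Matrix.det_one] at h1
  exact one_ne_zero h1

theorem Q6_mat (g : I6) (z : Fin 6 → F3) : Q6 (mat6 g *ᵥ z) = Q6 z := by
  have := g.2
  exact this z z

/-- the twisted extension -/
noncomputable def κm (g : I6) : Matrix ix ix F3 := (mat6 g).det • (Em * mat6 g * Pm + Pv)

theorem κm_one : κm 1 = 1 := by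
  rw [κm, mat6_one, Matrix.det_one, one_smul, Matrix.mul_one, EP]

theorem κm_mul (g h : I6) : κm (g * h) = κm g * κm h := by
  rw [κm, κm, κm, mat6_mul, Matrix.det_mul, Matrix.smul_mul, Matrix.mul_smul, smul_smul]
  congr 1
  have e1 : (Em * mat6 g * Pm) * (Em * mat6 h * Pm) = Em * (mat6 g * mat6 h) * Pm := by
    calc (Em * mat6 g * Pm) * (Em * mat6 h * Pm) = Em * mat6 g * (Pm * Em) * mat6 h * Pm := by simp only [Matrix.mul_assoc]
      _ = _ := by rw [PE]; simp only [Matrix.mul_assoc, Matrix.one_mul]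
  have e2 : (Em * mat6 g * Pm) * Pv = 0 := by rw [Matrix.mul_assoc, PPv, Matrix.mul_zero]
  have e3 : Pv * (Em * mat6 h * Pm) = 0 := by
    rw [← Matrix.mul_assoc, ← Matrix.mul_assoc, PvE, Matrix.zero_mul, Matrix.zero_mul]
  rw [Matrix.add_mul, Matrix.mul_add, Matrix.mul_add, e1, e2, e3, PvPv, add_zero, zero_add]

theorem κm_mulVec (g : I6) (x : VV) : κm g *ᵥ x = (mat6 g).det • (Em *ᵥ (mat6 g *ᵥ (Pm *ᵥ x)) + Pv *ᵥ x) := by
  rw [κm, Matrix.smul_mulVec, Matrix.add_mulVec, ← Matrix.mulVec_mulVec, ← Matrix.mulVec_mulVec]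

theorem Q_κm (g : I6) (x : VV) : Q (κm g *ᵥ x) = Q x := by
  rw [κm_mulVec, Q_smul, Q_split, Q6_mat, pow_two, sq_unit _ (det_ne g), one_mul, ← Q_split, decomp]

/-- the monoid homomorphism to matrices -/
noncomputable def κ0 : I6 →* Matrix ix ix F3 where
  toFun := κm
  map_one' := κm_one
  map_mul' := κm_mul

/-- the embedding -/
noncomputable def κ : I6 →* I := (κ0.toHomUnits).codRestrict I (by
  intro g
  intro u _
  exact Q_κm g u)

theorem act_κ (g : I6) (x : VV) : act (κ g) x = (mat6 g).det • (Em *ᵥ (mat6 g *ᵥ (Pm *ᵥ x)) + Pv *ᵥ x) := κm_mulVec g x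

theorem κ_inj : Function.Injective κ := by
  rw [injective_iff_map_eq_one]
  intro g hg
  have h1 : κm g = 1 := congrArg (fun z : I => ((z : GeneralLinearGroup ix F3) : Matrix ix ix F3)) hg
  have h2 : (mat6 g).det • mat6 g = 1 := by
    have h3 : Pm * κm g * Em = (mat6 g).det • mat6 g := by
      rw [κm, Matrix.mul_smul, Matrix.smul_mul]
      congr 1
      rw [Matrix.mul_add, PPv, add_zero]
      calc Pm * (Em * mat6 g * Pm) * Em = (Pm * Em) * mat6 g * (Pm * Em) := by simp only [Matrix.mul_assoc]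
        _ = mat6 g := by rw [PE, Matrix.one_mul, Matrix.mul_one]
    rw [← h3, h1, Matrix.mul_one, PE]
  have hs := sq_unit _ (det_ne g)
  have h4 : (mat6 g).det = 1 := by
    have h5 := congrArg Matrix.det h2
    rw [Matrix.det_smul, Matrix.det_one, Fintype.card_fin] at h5
    have h6 : (mat6 g).det ^ 6 = 1 := by
      have : (mat6 g).det ^ 6 = ((mat6 g).det * (mat6 g).det) ^ 3 := by ring
      rw [this, hs, one_pow]
    rw [h6, one_mul] at h5
    exact h5
  rw [h4, one_smul] at h2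
  apply Subtype.ext
  apply Units.ext
  exact h2

/-- images of reflections -/
theorem κ_refl {g : I6} {w : Fin 6 → F3} (hw : Q6 w = 2) (hg : mat6 g = Cfsg.reflectionMatrix (⇑Q6) w) :
    κ g = T (Em *ᵥ w) (by rw [← Q6_apply]; exact hw) := by
  apply H34.O73.ext
  intro x
  have hd : (mat6 g).det = -1 := by
    rw [hg]; exact H17.OrthMat.reflection_det Q6 w (by rw [hw]; decide)
  rw [act_κ, act_T, hd, hg, H17.OrthMat.reflectionMatrix_mulVec, hw, polar_Q6]
  have hB : Bf x (Em *ᵥ w) = Bf (Em *ᵥ w) (Em *ᵥ (Pm *ᵥ x)) := by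
    conv_lhs => rw [← decomp x]
    rw [Bf_symm, Bf_add_right, Pv_apply, Bf_smul_right, Em_orth, mul_zero, add_zero]
  rw [hB, Matrix.mulVec_sub, Matrix.mulVec_smul]
  have h2 : (2 : F3)⁻¹ = -1 := inv_eq_of_mul_eq_one_right (by decide)
  rw [h2]
  have h3 := decomp x
  set A := Em *ᵥ (Pm *ᵥ x) with hA
  set B := Pv *ᵥ x with hB'
  set b := Bf (Em *ᵥ w) A with hb
  set W := Em *ᵥ w with hW
  clear_value A B b W
  rw [← h3]
  module

/-- the subgroup generated by the negated reflections orthogonal to `v` -/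
def CT : Subgroup I := Subgroup.closure {g | ∃ (w : VV) (hw : Q w = 2), Bf w v = 0 ∧ g = T w hw}

theorem map_κ : (Cfsg.reflectionSubgroup (⇑Q6) 2).map κ = CT := by
  rw [Cfsg.reflectionSubgroup, MonoidHom.map_closure, CT]
  congr 1
  ext g
  constructor
  · rintro ⟨h, ⟨w, hw, hg⟩, rfl⟩
    exact ⟨Em *ᵥ w, by rw [← Q6_apply]; exact hw, Em_orth w, κ_refl hw hg⟩
  · rintro ⟨w, hw, hwv, rfl⟩
    have hw6 : Q6 (Pm *ᵥ w) = 2 := by rw [Q6_apply, Em_Pm hwv, hw]
    refine ⟨H17.OrthDet.refl Q6 (Pm *ᵥ w) (by rw [hw6]; decide), ⟨Pm *ᵥ w, hw6, rfl⟩, ?_⟩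
    rw [κ_refl hw6 rfl]
    exact T_congr (Em_Pm hwv) _ _

/-- the Gram determinant -/
theorem polarGramDet_Q6 : Cfsg.polarGramDet (⇑Q6) = 1 := by
  rw [Cfsg.polarGramDet]
  have h : (Matrix.of fun i j : Fin 6 => polar (⇑Q6) (Pi.single i 1) (Pi.single j 1)) = (2 : F3) • (1 : Matrix (Fin 6) (Fin 6) F3) := by
    ext i j
    rw [Matrix.of_apply, polar_Q6, Em_single, Em_single, gram, Matrix.smul_apply, Matrix.one_apply]
    by_cases h : i = j
    · rw [if_pos h, if_pos h]; rfl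
    · rw [if_neg h, if_neg h]; rfl
  rw [h, Matrix.det_smul, Matrix.det_one, Fintype.card_fin]
  decide

theorem nd_of_gram {n : ℕ} {Q : QuadraticForm F3 (Fin n → F3)} (a : Fin n → F3) (ha : ∀ i, a i ≠ 0)
    (h : ∀ i j : Fin n, polar (⇑Q) (Pi.single i 1) (Pi.single j 1) = if i = j then a i else 0) : (polarBilin Q).Nondegenerate := by
  have key : ∀ (x : Fin n → F3) (j : Fin n), polar (⇑Q) x (Pi.single j 1) = a j * x j := by
    intro x j
    have h1 : (polarBilin Q).flip (Pi.single j 1) = a j • (LinearMap.proj j : (Fin n → F3) →ₗ[F3] F3) := by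
      apply LinearMap.pi_ext'
      intro i
      apply LinearMap.ext_ring
      change polar (⇑Q) (Pi.single i 1) (Pi.single j 1) = a j * (Pi.single i (1 : F3) : Fin n → F3) j
      rw [h, Pi.single_apply]
      by_cases hij : i = j
      · subst hij; simp
      · rw [if_neg hij, if_neg (Ne.symm hij), mul_zero]
    exact LinearMap.congr_fun h1 x
  have hl : ∀ x : Fin n → F3, (∀ y, polar (⇑Q) x y = 0) → x = 0 := by
    intro x hx
    funext j
    have h1 := hx (Pi.single j 1)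
    rw [key] at h1
    exact (mul_eq_zero.1 h1).resolve_left (ha j)
  constructor
  · intro x hx
    exact hl x hx
  · intro x hx
    refine hl x (fun y => ?_)
    rw [polar_comm]
    exact hx y

theorem nd_Q6 : (polarBilin Q6).Nondegenerate := by
  refine nd_of_gram (fun _ => 2) (fun _ => by decide) ?_
  intro i j
  rw [polar_Q6, Em_single, Em_single, gram]

/-- a form in dimension seven on `Fin 7` -/
def E7 : Matrix ix (Fin 7) F3 := Matrix.of fun i j => (![(fun i => Em i 0), (fun i => Em i 1), (fun i => Em i 2), (fun i => Em i 3), (fun i => Em i 4),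
  (fun i => Em i 5), v] : Fin 7 → VV) j i

noncomputable def Q7 : QuadraticForm F3 (Fin 7 → F3) := Q0.comp (Matrix.toLin' E7)

theorem Q7_apply (z : Fin 7 → F3) : Q7 z = Q (E7 *ᵥ z) := by
  rw [Q7, QuadraticMap.comp_apply, Matrix.toLin'_apply]
  exact congrFun coe_Q0 _

theorem polar_Q7 (x y : Fin 7 → F3) : polar (⇑Q7) x y = Bf (E7 *ᵥ x) (E7 *ᵥ y) := by
  rw [polar, Bf, Q7_apply, Q7_apply, Q7_apply, Matrix.mulVec_add]

theorem E7_single (j : Fin 7) : E7 *ᵥ (Pi.single j 1) = fun i => E7 i j := by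
  rw [Matrix.mulVec_single_one]; rfl

def a7 : Fin 7 → F3 := ![2, 2, 2, 2, 2, 2, 1]

theorem gram7 : ∀ i j : Fin 7, Bf (fun k => E7 k i) (fun k => E7 k j) = if i = j then a7 i else 0 := by decide +kernel

theorem nd_Q7 : (polarBilin Q7).Nondegenerate := by
  refine nd_of_gram a7 (by decide) ?_
  intro i j
  rw [polar_Q7, E7_single, E7_single, gram7]

theorem polarGramDet_Q7 : Cfsg.polarGramDet (⇑Q7) = -2 := by
  rw [Cfsg.polarGramDet]
  have h : (Matrix.of fun i j : Fin 7 => polar (⇑Q7) (Pi.single i 1) (Pi.single j 1)) = Matrix.diagonal a7 := by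
    ext i j
    rw [Matrix.of_apply, polar_Q7, E7_single, E7_single, gram7, Matrix.diagonal_apply]
  rw [h, Matrix.det_diagonal]
  decide

end H93.Six
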