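import Cfsg.Agent.Lib.H93.Ex.P23
import Cfsg.Agent.Lib.H93.Ex.Six

/-!
# The centralizer of two non-commuting transpositions of Fi22
-/

set_option autoImplicit false
set_option linter.all false
set_option maxRecDepth 10000

namespace H93.Ex

open H92.Tri H92.Pair2 H92.Pair0 H34.IsoRow H34.O73
open H35.TCFi22C (Lt mm extra)
open H93.Tri.L23 (G3 D3)
open H93.Six (v CT κ sq_unit)

abbrev G2 := Cfsg.Spor.Fi22
abbrev D2 : Set G2 := H35.FiClass22.D

/-- the quotient map of a double cover -/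
theorem cover_hom {G Y : Type*} [Group G] [Group Y] {H : Subgroup G} {t : G} (hH : H = Subgroup.centralizer ({t} : Set G)) (ht1 : t ≠ 1)
    (hcov : Cfsg.IsNonsplitDoubleCover ↥H Y) :
    ∃ π : ↥H →* Y, Function.Surjective π ∧ ∀ x : ↥H, π x = 1 ↔ (x : G) = 1 ∨ (x : G) = t := by
  obtain ⟨hc2, ⟨e⟩, -⟩ := hcov
  have htH : t ∈ H := by rw [hH, Subgroup.mem_centralizer_singleton_iff]
  have htc : (⟨t, htH⟩ : ↥H) ∈ Subgroup.center ↥H := by
    rw [Subgroup.mem_center_iff]
    intro g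
    have h0 : ∀ x ∈ H, x * t = t * x := by
      intro x hx
      rw [hH, Subgroup.mem_centralizer_singleton_iff] at hx
      exact hx
    exact Subtype.ext (h0 _ g.2)
  have hcen : ∀ x ∈ Subgroup.center ↥H, x = 1 ∨ x = ⟨t, htH⟩ := by
    intro x hx
    by_contra hcon
    push Not at hcon
    have h3 : ({1, ⟨t, htH⟩, x} : Set ↥H).ncard = 3 := by
      rw [Set.ncard_eq_three]
      exact ⟨1, ⟨t, htH⟩, x, fun h => ht1 (congrArg Subtype.val h).symm, hcon.1.symm, hcon.2.symm, rfl⟩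
    have h4 : ({1, ⟨t, htH⟩, x} : Set ↥H) ⊆ (Subgroup.center ↥H : Set ↥H) := by
      rintro y (rfl | rfl | rfl)
      · exact Subgroup.one_mem _
      · exact htc
      · exact hx
    have h6 : (Subgroup.center ↥H : Set ↥H).ncard = 2 := by rw [← Nat.card_coe_set_eq]; exact hc2
    have hf : (Subgroup.center ↥H : Set ↥H).Finite := Set.finite_of_ncard_ne_zero (by rw [h6]; norm_num)
    have h5 := Set.ncard_le_ncard h4 hf
    omega
  refine ⟨e.toMonoidHom.comp (QuotientGroup.mk' (Subgroup.center ↥H)), e.surjective.comp (QuotientGroup.mk'_surjective _), ?_⟩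
  intro x
  change e (QuotientGroup.mk x) = 1 ↔ _
  rw [map_eq_one_iff e e.injective, QuotientGroup.eq_one_iff]
  constructor
  · intro h
    rcases hcen x h with h1 | h1
    · left; exact congrArg Subtype.val h1
    · right; exact congrArg Subtype.val h1
  · rintro (h | h)
    · have : x = 1 := Subtype.ext h
      rw [this]; exact Subgroup.one_mem _
    · have : x = ⟨t, htH⟩ := Subtype.ext h
      rw [this]; exact htc

/-- transport of the map to another transposition -/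
theorem xi_gen {G Y : Type*} [Group G] [Group Y] {t σ g : G} (hgσ : g * σ * g⁻¹ = t) {D : Set G} (hD : ∀ g : G, ∀ d ∈ D, g * d * g⁻¹ ∈ D)
    {H : Subgroup G} (hH : H = Subgroup.centralizer ({t} : Set G)) (q : ↥H →* Y) (hq : Function.Surjective q)
    (hk : ∀ z : ↥H, q z = 1 ↔ (z : G) = 1 ∨ (z : G) = t) {D' : Set Y} (hD' : (q '' {x | (x : G) ∈ D}) \ {1} = D') :
    ∃ ξ : ↥(Subgroup.centralizer ({σ} : Set G)) →* Y, Function.Surjective ξ ∧
    (∀ z, ξ z = 1 ↔ (z : G) = 1 ∨ (z : G) = σ) ∧ (ξ '' {x | (x : G) ∈ D}) \ {1} = D' := by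
  subst hH
  have hmem : ∀ z : ↥(Subgroup.centralizer ({σ} : Set G)),
      ((MulAut.conj g).toMonoidHom.comp (Subgroup.centralizer ({σ} : Set G)).subtype) z ∈ Subgroup.centralizer ({t} : Set G) := by
    intro z
    change g * (z : G) * g⁻¹ ∈ Subgroup.centralizer ({t} : Set G)
    rw [Subgroup.mem_centralizer_singleton_iff, ← hgσ]
    have h := Subgroup.mem_centralizer_singleton_iff.1 z.2
    calc g * (z : G) * g⁻¹ * (g * σ * g⁻¹) = g * ((z : G) * σ) * g⁻¹ := by group
      _ = g * (σ * z) * g⁻¹ := by rw [h]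
      _ = _ := by group
  set c : ↥(Subgroup.centralizer ({σ} : Set G)) →* ↥(Subgroup.centralizer ({t} : Set G)) :=
    ((MulAut.conj g).toMonoidHom.comp (Subgroup.centralizer ({σ} : Set G)).subtype).codRestrict _ hmem with hc
  have hcv : ∀ z, ((c z : ↥(Subgroup.centralizer ({t} : Set G))) : G) = g * z * g⁻¹ := fun z => rfl
  have hcs : Function.Surjective c := by
    intro y
    have hy := Subgroup.mem_centralizer_singleton_iff.1 y.2
    have hm : g⁻¹ * (y : G) * g ∈ Subgroup.centralizer ({σ} : Set G) := by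
      rw [Subgroup.mem_centralizer_singleton_iff]
      have e : σ = g⁻¹ * t * g := by rw [← hgσ]; group
      calc g⁻¹ * (y : G) * g * σ = g⁻¹ * ((y : G) * t) * g := by rw [e]; group
        _ = g⁻¹ * (t * y) * g := by rw [hy]
        _ = σ * (g⁻¹ * (y : G) * g) := by rw [e]; group
    refine ⟨⟨_, hm⟩, Subtype.ext ?_⟩
    rw [hcv]
    change g * (g⁻¹ * (y : G) * g) * g⁻¹ = y
    group
  refine ⟨q.comp c, hq.comp hcs, ?_, ?_⟩
  · intro z
    change q (c z) = 1 ↔ _
    rw [hk, hcv]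
    constructor
    · rintro (h | h)
      · left
        have : (z : G) = g⁻¹ * (g * (z : G) * g⁻¹) * g := by group
        rw [this, h]; group
      · right
        have : (z : G) = g⁻¹ * (g * (z : G) * g⁻¹) * g := by group
        rw [this, h, ← hgσ]; group
    · rintro (h | h)
      · left; rw [h]; group
      · right; rw [h, hgσ]
  · rw [← hD']
    congr 1
    ext y
    constructor
    · rintro ⟨x, hx, rfl⟩
      exact ⟨c x, hD g _ hx, rfl⟩
    · rintro ⟨x, hx, rfl⟩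
      obtain ⟨z, rfl⟩ := hcs x
      refine ⟨z, ?_, rfl⟩
      have hx' : g * (z : G) * g⁻¹ ∈ D := hx
      have h2 := hD g⁻¹ _ hx'
      have e : g⁻¹ * (g * (z : G) * g⁻¹) * g⁻¹⁻¹ = z := by group
      rw [e] at h2
      exact h2

/-- the centralizer of a transposition of Fi23 maps onto Fi22 -/
theorem xi23 {σ : G3} (hσ : σ ∈ D3) : ∃ ξ : ↥(Subgroup.centralizer ({σ} : Set G3)) →* G2, Function.Surjective ξ ∧
    (∀ z, ξ z = 1 ↔ (z : G3) = 1 ∨ (z : G3) = σ) ∧ (ξ '' {x | (x : G3) ∈ D3}) \ {1} = D2 := by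
  have hfin3 : Finite G3 := H35.Fi23Main.fin
  have hH := H92.Expl23.H1_eq
  obtain ⟨π, hπ, hπk⟩ := cover_hom hH H92.Expl23.t_ne H34.Fi23D.main
  obtain ⟨g0, hg0⟩ := H92.Expl23.mem_iff.1 hσ
  refine xi_gen (g := g0⁻¹) (t := H35.FiClass23.t) (σ := σ) ?_ cl3 hH π hπ hπk ?_
  · rw [← hg0]; group
  · apply H92.Expl22.diff_eq
    · have ht : Tri {x : ↥H35.Fi23Main.H1 | (x : G3) ∈ D3} :=
        ⟨fun x hx => Subtype.ext (H92.Expl23.tri.sq _ hx), fun x hx y hy => by
          rcases H92.Expl23.tri.three _ hx _ hy with h | h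
          · exact Or.inl (Subtype.ext h)
          · exact Or.inr (Subtype.ext h), fun x hx y hy => H92.Expl23.tri.conj _ hx _ hy⟩
      exact H92.Lev.tri_image π ht
    · have h1 : {z | z ∈ D3 ∧ z ≠ H35.FiClass23.t ∧ Commute H35.FiClass23.t z}.Nonempty := by
        apply Set.nonempty_of_ncard_ne_zero
        rw [H35.FiClass23.D_valency H92.Expl23.t_mem]; norm_num
      obtain ⟨z, hz, hzt, hcz⟩ := h1
      have hgen := H92.Expl0.gen H92.Expl23.tri H92.Expl23.one_notMem H92.Expl23.closure_D H92.Expl23.t_mem hH H34.Fi23D.main hz hzt hcz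
        H35.Fi22Main.simple
      rw [← MonoidHom.map_closure]
      have h2 : Subgroup.closure {x : ↥H35.Fi23Main.H1 | (x : G3) ∈ D3} = ⊤ := by
        rw [eq_top_iff, ← H92.Step.closure_lf hgen]
        apply Subgroup.closure_mono
        intro x hx
        exact hx.1
      rw [h2, ← MonoidHom.range_eq_map]
      exact MonoidHom.range_eq_top.2 hπ

/-- members of the centralizer -/
theorem xi_mem {G Y : Type*} [Group G] [Group Y] {D : Set G} (h1 : (1 : G) ∉ D) {σ : G} {D' : Set Y}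
    (ξ : ↥(Subgroup.centralizer ({σ} : Set G)) →* Y) (hk : ∀ z, ξ z = 1 ↔ (z : G) = 1 ∨ (z : G) = σ)
    (hD : (ξ '' {x | (x : G) ∈ D}) \ {1} = D')
    {z : ↥(Subgroup.centralizer ({σ} : Set G))} (hz : (z : G) ∈ D) (hzσ : (z : G) ≠ σ) : ξ z ∈ D' := by
  rw [← hD]
  refine ⟨⟨_, hz, rfl⟩, ?_⟩
  intro h
  rcases (hk _).1 h with h2 | h2
  · exact h1 (h2 ▸ hz)
  · exact hzσ h2

theorem xi_comm {G Y : Type*} [Group G] [Group Y] {D : Set G} (hT : Tri D) (h1 : (1 : G) ∉ D) {σ : G} (hσ : σ ∈ D)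
    (ξ : ↥(Subgroup.centralizer ({σ} : Set G)) →* Y) (hk : ∀ z, ξ z = 1 ↔ (z : G) = 1 ∨ (z : G) = σ)
    {x y : ↥(Subgroup.centralizer ({σ} : Set G))} (hx : (x : G) ∈ D) (hy : (y : G) ∈ D) (h : Commute (ξ x) (ξ y)) : Commute (x : G) y := by
  rcases hT.three _ hx _ hy with h0 | h0
  · exact h0
  have h2 : ξ (x * y * (y * x)⁻¹) = 1 := by
    rw [map_mul, map_inv, map_mul, map_mul, h.eq, mul_inv_cancel]
  have hxi : (x : G)⁻¹ = x := inv_eq_of_mul_eq_one_left (hT.sq _ hx)
  have hyi : (y : G)⁻¹ = y := inv_eq_of_mul_eq_one_left (hT.sq _ hy)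
  rcases (hk _).1 h2 with h3 | h3
  · have h3 : (x : G) * y * ((y : G) * x)⁻¹ = 1 := h3
    exact mul_inv_eq_one.1 h3
  · exfalso
    have h3 : (x : G) * y * ((y : G) * x)⁻¹ = σ := h3
    have h4 : ((y : G) * x)⁻¹ = x * y := by rw [mul_inv_rev, hxi, hyi]
    rw [h4, ← pow_two] at h3
    have h5 : (((x : G) * y) ^ 2) ^ 3 = σ ^ 3 := by rw [h3]
    have h6 : ((x : G) * y) ^ 3 = 1 := by
      have e : ((x : G) * y) ^ 3 = (x * y * x) * (y * x * y) := by rw [pow_succ, pow_two]; simp only [mul_assoc]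
      rw [e, h0]
      calc (y : G) * x * y * (y * x * y) = y * x * (y * y) * x * y := by simp only [mul_assoc]
        _ = y * (x * x) * y := by rw [hT.sq _ hy, mul_one]; simp only [mul_assoc]
        _ = 1 := by rw [hT.sq _ hx, mul_one, hT.sq _ hy]
    have h7 : σ ^ 3 = σ := by rw [pow_succ, pow_two, hT.sq _ hσ, one_mul]
    rw [← pow_mul, mul_comm, pow_mul, h6, one_pow, h7] at h5
    exact h1 (h5 ▸ hσ)

/-! ### the negated reflections -/

theorem Qv : Q v = 2 := by decide +kernel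

theorem v_ne : v ≠ 0 := by decide +kernel

theorem Bf_self_of {w : VV} (hw : Q w = 2) : Bf w w = 1 := by rw [Bf_self, hw]; decide

theorem T_smul {w : VV} {b : F3} (hb : b ≠ 0) (hw : Q w = 2) (h' : Q (b • w) = 2) : T (b • w) h' = T w hw := by
  apply H34.O73.ext
  intro x
  have hs := sq_unit b hb
  rw [act_T, act_T, Bf_smul_right, smul_smul]
  congr 2
  calc b * Bf x w * b = (b * b) * Bf x w := by ring
    _ = _ := by rw [hs, one_mul]

theorem T_mem {w : VV} (hw : Q w = 2) : T w hw ∈ KK := by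
  obtain ⟨k, hk, e⟩ := exists_vec hw
  have := mem_T k hk
  rwa [T_congr e (Q_vec hk) hw] at this

theorem T_comm_of {w u : VV} (hw : Q w = 2) (hu : Q u = 2) (h : Bf w u = 0) : T w hw * T u hu = T u hu * T w hw := by
  have h1 := conj_T (T w hw) u hu
  have h2 : act (T w hw) u = (-1 : F3) • u := by
    rw [act_T, H93.Six.Bf_symm, h]; module
  have h3 : T w hw * T u hu * (T w hw)⁻¹ = T u hu := by
    rw [h1, T_congr h2 _ (by rw [Q_smul, hu]; decide)]
    exact T_smul (by decide) hu _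
  rw [mul_inv_eq_iff_eq_mul] at h3
  exact h3

theorem T_comm {w u : VV} (hw : Q w = 2) (hu : Q u = 2) (h : T w hw * T u hu = T u hu * T w hw) :
    Bf w u = 0 ∨ T w hw = T u hu := by
  by_cases hb : Bf w u = 0
  · exact Or.inl hb
  right
  have h1 : act (T w hw * T u hu) w = act (T u hu * T w hw) w := by rw [h]
  rw [act_mul, act_mul] at h1
  have e1 : act (T w hw) w = w := by
    rw [act_T, Bf_self_of hw]
    have h0 : (3 : F3) • w = 0 := by rw [three, zero_smul]
    have : -w - (1 : F3) • w = w - (3 : F3) • w := by module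
    rw [this, h0, sub_zero]
  rw [e1] at h1
  have e2 : act (T u hu) w = (-1 : F3) • w + (- Bf w u) • u := by rw [act_T]; module
  rw [e2, act_add, act_smul, act_smul, e1, act_T w hw u, H93.Six.Bf_symm u w] at h1
  set β := Bf w u with hβ
  have hs := sq_unit β hb
  have h3 : ∀ x : VV, (3 : F3) • x = 0 := fun x => by rw [three, zero_smul]
  -- 2βu + ββw = 0
  have h4 : (2 * β) • u + (β * β) • w = 0 := by
    have h5 : ((-1 : F3) • w + -β • (-u - β • w)) - ((-1 : F3) • w + -β • u) = (2 * β) • u + (β * β) • w := by module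
    rw [← h5, h1, sub_self]
  have h5 : u = β • w := by
    have h6 : β • ((2 * β) • u + (β * β) • w) = (2 * (β * β)) • u + (β * (β * β)) • w := by module
    rw [h4, smul_zero, hs, mul_one, mul_one] at h6
    have h7 : u = β • w - ((2 : F3) • u + β • w) + (3 : F3) • u := by module
    rw [h7, ← h6, h3]
    module
  rw [T_congr h5 hu (h5 ▸ hu)]
  exact (T_smul hb hw _).symm

theorem T_ne {w u : VV} (hw : Q w = 2) (hu : Q u = 2) (h : Bf w u = 0) : T w hw ≠ T u hu := by
  intro e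
  have h1 : act (T w hw) u = act (T u hu) u := by rw [e]
  rw [act_T, act_T, H93.Six.Bf_symm, h, Bf_self_of hu] at h1
  have h2 : u = 0 := by
    have : (-u - (0 : F3) • w) - (-u - (1 : F3) • u) = u := by module
    rw [← this, h1, sub_self]
  rw [h2, ← zero_smul F3 (0 : VV), Q_smul] at hu
  exact absurd hu (by rw [zero_pow (by norm_num), zero_mul]; decide)

theorem T_conj {w : VV} (hw : Q w = 2) : ∃ g ∈ KK, g * TT .b * g⁻¹ = T w hw := by
  obtain ⟨k, hk, rfl⟩ := exists_vec hw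
  have key : ∀ k, (hk : k < 702) → ∃ g ∈ KK, g * TT .b * g⁻¹ = T (vec k) (Q_vec hk) := by
    intro k
    induction k using Nat.strong_induction_on with
    | _ k ih =>
      intro hk
      have h := allB_spec cP k hk
      rcases Nat.eq_zero_or_pos k with rfl | hpos
      · have e : vec 0 = dc (gN .b) := by rw [vec, ← (cbi .b).1]; rfl
        refine ⟨1, KK.one_mem, ?_⟩
        rw [T_congr e _ (Q_g .b), one_mul, inv_one, mul_one]; rfl
      · have hb : Nat.beq k 0 = false := by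
          cases hb : Nat.beq k 0 with
          | false => rfl
          | true => have := beq_iff hb; omega
        rw [chkP, hb] at h
        have h' : (Nat.blt (Nat.shiftRight (pr k) 3) k && Nat.beq (PP (H35.TCFi22C.lt (Nat.land (pr k) 7)) (Nat.shiftRight (pr k) 3)) k) = true := h
        rw [Bool.and_eq_true] at h'
        obtain ⟨h1, h2⟩ := h'
        have h1' : Nat.shiftRight (pr k) 3 < k := by simpa using h1
        have h2' := beq_iff h2
        have hj : Nat.shiftRight (pr k) 3 < 702 := lt_trans h1' hk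
        obtain ⟨g, hg, h3⟩ := ih _ h1' hj
        have h4 := conj_T (TT (H35.TCFi22C.lt (Nat.land (pr k) 7))) _ (Q_vec hj)
        have h5 : act (TT (H35.TCFi22C.lt (Nat.land (pr k) 7))) (vec (Nat.shiftRight (pr k) 3)) = vec k := by
          rw [act_TT _ hj, h2']
        refine ⟨TT (H35.TCFi22C.lt (Nat.land (pr k) 7)) * g, KK.mul_mem (Subgroup.subset_closure ⟨_, rfl⟩) hg, ?_⟩
        rw [T_congr h5.symm _ (by rw [Q_act]; exact Q_vec hj), ← h4, ← h3]
        group
  exact key k hk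

theorem TT_b : TT .b = T v Qv := T_congr (by decide +kernel) _ _

theorem exists_Phi : ∃ Φ : PG mm extra →* I, (∀ x, Φ (gen mm extra x) = TT x) ∧ Function.Injective Φ ∧ Φ.range = KK := by
  obtain ⟨Φ, hΦ⟩ := H34.IsoRow.exists_hom (mm := mm) (ex := extra) TT hpT heT
  refine ⟨Φ, hΦ, ?_, ?_⟩
  · obtain ⟨e⟩ := H93.Tri.O7.pg_iso
    have hPGs : IsSimpleGroup (PG mm extra) := (e.isSimpleGroup_congr).2 H93.Tri.O7.simple
    rw [← MonoidHom.ker_eq_bot_iff]
    rcases hPGs.eq_bot_or_eq_top_of_normal Φ.ker inferInstance with h | h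
    · exact h
    · exfalso
      have h1 : ∀ x, Φ x = 1 := fun x => by
        have : x ∈ Φ.ker := by rw [h]; trivial
        exact this
      apply TT_ncomm
      rw [← hΦ, ← hΦ, h1, h1]
  · have h1 : (⊤ : Subgroup (PG mm extra)).map Φ = KK := by
      rw [← gen_top, MonoidHom.map_closure, ← Set.range_comp]
      congr 1
      ext y
      constructor
      · rintro ⟨x, rfl⟩; exact ⟨x, (hΦ x).symm⟩
      · rintro ⟨x, rfl⟩; exact ⟨x, hΦ x⟩
    rw [← h1, ← MonoidHom.range_eq_map]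

/-- the central quotient of the reflection group in dimension six -/
theorem quot6 {X : Type*} [Group X] (e : X ≃* ↥CT ⧸ Subgroup.center ↥CT) : Cfsg.IsProjReflectionGroupModThree X 6 1 2 := by
  refine ⟨H93.Six.Q6, H93.Six.nd_Q6, H93.Six.polarGramDet_Q6, ⟨e.trans ?_⟩⟩
  have e1 : ↥(Cfsg.reflectionSubgroup (⇑H93.Six.Q6) 2) ≃* ↥CT :=
    (Subgroup.equivMapOfInjective _ κ H93.Six.κ_inj).trans (MulEquiv.subgroupCongr H93.Six.map_κ)
  exact (H7.OmegaIso.quotCenterCongr e1).symm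

theorem CT_le : CT ≤ KK := by
  rw [CT, Subgroup.closure_le]
  rintro _ ⟨w, hw, -, rfl⟩
  exact T_mem hw

theorem CT_comm {x : I} (hx : x ∈ CT) : x * T v Qv = T v Qv * x := by
  have h : CT ≤ Subgroup.centralizer ({T v Qv} : Set I) := by
    rw [CT, Subgroup.closure_le]
    rintro _ ⟨w, hw, hwv, rfl⟩
    rw [SetLike.mem_coe, Subgroup.mem_centralizer_singleton_iff]
    exact T_comm_of hw Qv hwv
  exact Subgroup.mem_centralizer_singleton_iff.1 (h hx)

theorem nl2 : NL 1 D2 := nl_one H92.Expl22.lg H92.Expl22.card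

set_option maxHeartbeats 2000000 in
theorem main22 : ∃ d c : G2, d ∈ D2 ∧ c ∈ D2 ∧ ¬ Commute d c ∧ PairOK D2 d c 6 (fun _ => 1) := by
  have hfin3 : Finite G3 := H35.Fi23Main.fin
  have hfin2 : Finite G2 := H35.Fi22Main.fin
  obtain ⟨Θ, d, c, hd, hc, hdc, hΘi, hΘr, hΘD⟩ := main23
  obtain ⟨Φ, hΦ, hΦi, hΦr⟩ := exists_Phi
  set e : PG mm extra ≃* ↥KK := (MonoidHom.ofInjective hΦi).trans (MulEquiv.subgroupCongr hΦr) with he
  have hev : ∀ x, ((e x : ↥KK) : I) = Φ x := fun _ => rfl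
  set ψ : ↥KK →* G3 := Θ.comp e.symm.toMonoidHom with hψ
  have hψe : ∀ x, ψ (e x) = Θ x := by
    intro x
    change Θ (e.symm (e x)) = Θ x
    rw [e.symm_apply_apply]
  have hψi : Function.Injective ψ := hΘi.comp e.symm.injective
  have hψr : ψ.range = Subgroup.centralizer ({d, c} : Set G3) := by
    rw [← hΘr]
    ext y
    constructor
    · rintro ⟨x, rfl⟩; exact ⟨e.symm x, rfl⟩
    · rintro ⟨x, rfl⟩; exact ⟨e x, hψe x⟩
  set σ := Θ (gen mm extra .b) with hσdef
  have hσ : σ ∈ D3 := hΘD .b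
  have hσψ : ψ ⟨T v Qv, T_mem Qv⟩ = σ := by
    rw [hσdef, ← hψe]
    congr 1
    apply Subtype.ext
    rw [hev, hΦ, TT_b]
  have hTD : ∀ {w : VV} (hw : Q w = 2), ψ ⟨T w hw, T_mem hw⟩ ∈ D3 := by
    intro w hw
    obtain ⟨g, hg, h1⟩ := T_conj hw
    have h2 : (⟨T w hw, T_mem hw⟩ : ↥KK) = ⟨g, hg⟩ * ⟨T v Qv, T_mem Qv⟩ * (⟨g, hg⟩ : ↥KK)⁻¹ := by
      apply Subtype.ext
      change T w hw = g * T v Qv * g⁻¹
      rw [← h1, TT_b]
    rw [h2, map_mul, map_mul, map_inv, hσψ]
    exact cl3 _ _ hσ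
  obtain ⟨ξ, hξs, hξk, hξD⟩ := xi23 hσ
  have hcomm : ∀ x : ↥KK, ψ x * d = d * ψ x ∧ ψ x * c = c * ψ x := by
    intro x
    have h1 : ψ x ∈ Subgroup.centralizer ({d, c} : Set G3) := by rw [← hψr]; exact ⟨x, rfl⟩
    rw [Subgroup.mem_centralizer_iff] at h1
    exact ⟨(h1 d (by simp)).symm, (h1 c (by simp)).symm⟩
  have hσd : σ * d = d * σ := by rw [← hσψ]; exact (hcomm _).1
  have hσc : σ * c = c * σ := by rw [← hσψ]; exact (hcomm _).2
  have hdm : d ∈ Subgroup.centralizer ({σ} : Set G3) := by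
    rw [Subgroup.mem_centralizer_singleton_iff]; exact hσd.symm
  have hcm : c ∈ Subgroup.centralizer ({σ} : Set G3) := by
    rw [Subgroup.mem_centralizer_singleton_iff]; exact hσc.symm
  have hdσ : d ≠ σ := by rintro rfl; exact hdc hσc
  have hcσ : c ≠ σ := by rintro rfl; exact hdc hσd.symm
  have hd2 := xi_mem (z := ⟨d, hdm⟩) H92.Expl23.one_notMem ξ hξk hξD hd hdσ
  have hc2 := xi_mem (z := ⟨c, hcm⟩) H92.Expl23.one_notMem ξ hξk hξD hc hcσ
  have hdc2 : ¬ Commute (ξ ⟨d, hdm⟩) (ξ ⟨c, hcm⟩) := by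
    intro h
    exact hdc (xi_comm (x := ⟨d, hdm⟩) (y := ⟨c, hcm⟩) H92.Expl23.tri H92.Expl23.one_notMem hσ ξ hξk hd hc h)
  refine ⟨ξ ⟨d, hdm⟩, ξ ⟨c, hcm⟩, hd2, hc2, hdc2, ?_⟩
  set d' := ξ ⟨d, hdm⟩ with hd'
  set c' := ξ ⟨c, hcm⟩ with hc'
  have htσ : ∀ t : ↥CT, ψ ⟨(t : I), CT_le t.2⟩ ∈ Subgroup.centralizer ({σ} : Set G3) := by
    intro t
    rw [Subgroup.mem_centralizer_singleton_iff, ← hσψ, ← map_mul, ← map_mul]
    congr 1
    exact Subtype.ext (CT_comm t.2)
  set ν0 : ↥CT →* ↥(Subgroup.centralizer ({σ} : Set G3)) :=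
    (ψ.comp (Subgroup.inclusion CT_le)).codRestrict _ (fun t => htσ t) with hν0
  have hν0v : ∀ t : ↥CT, ((ν0 t : ↥(Subgroup.centralizer ({σ} : Set G3))) : G3) = ψ ⟨(t : I), CT_le t.2⟩ := fun _ => rfl
  set ν : ↥CT →* G2 := ξ.comp ν0 with hν
  -- the image of the generators
  have hgens : ν '' ((Subtype.val : ↥CT → I) ⁻¹' {g | ∃ (w : VV) (hw : Q w = 2), Bf w v = 0 ∧ g = T w hw}) =
      H92.Tri.C D2 d' ∩ H92.Tri.C D2 c' := by
    ext x
    constructor
    · rintro ⟨t, ⟨w, hw, hwv, ht⟩, rfl⟩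
      have h1 : ((ν0 t : ↥(Subgroup.centralizer ({σ} : Set G3))) : G3) = ψ ⟨T w hw, T_mem hw⟩ := by
        rw [hν0v]; congr 1; exact Subtype.ext ht
      have h2 : ((ν0 t : ↥(Subgroup.centralizer ({σ} : Set G3))) : G3) ∈ D3 := by rw [h1]; exact hTD hw
      have h3 : ((ν0 t : ↥(Subgroup.centralizer ({σ} : Set G3))) : G3) ≠ σ := by
        rw [h1, ← hσψ]
        intro h
        exact T_ne hw Qv hwv (congrArg Subtype.val (hψi h))
      have h4 : ν t ∈ D2 := xi_mem H92.Expl23.one_notMem ξ hξk hξD h2 h3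
      have h5 : Commute d' (ν t) := by
        change ξ _ * ξ _ = ξ _ * ξ _
        rw [← map_mul, ← map_mul]
        congr 1
        apply Subtype.ext
        change d * ((ν0 t : ↥(Subgroup.centralizer ({σ} : Set G3))) : G3) = ((ν0 t : ↥(Subgroup.centralizer ({σ} : Set G3))) : G3) * d
        rw [h1]; exact (hcomm _).1.symm
      have h6 : Commute c' (ν t) := by
        change ξ _ * ξ _ = ξ _ * ξ _
        rw [← map_mul, ← map_mul]
        congr 1
        apply Subtype.ext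
        change c * ((ν0 t : ↥(Subgroup.centralizer ({σ} : Set G3))) : G3) = ((ν0 t : ↥(Subgroup.centralizer ({σ} : Set G3))) : G3) * c
        rw [h1]; exact (hcomm _).2.symm
      exact ⟨⟨h4, fun h => hdc2 (h ▸ h6).symm, h5⟩, ⟨h4, fun h => hdc2 (h ▸ h5), h6⟩⟩
    · rintro ⟨⟨hx, hxd, hdx⟩, ⟨-, hxc, hcx⟩⟩
      have hx' := hx
      rw [← hξD] at hx'
      obtain ⟨⟨y, hy, hyx⟩, hx1⟩ := hx'
      have hx1 : x ≠ 1 := hx1
      have hy : (y : G3) ∈ D3 := hy
      have h1 : Commute d (y : G3) :=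
        xi_comm (x := ⟨d, hdm⟩) (y := y) H92.Expl23.tri H92.Expl23.one_notMem hσ ξ hξk hd hy (by rw [hyx]; exact hdx)
      have h2 : Commute c (y : G3) :=
        xi_comm (x := ⟨c, hcm⟩) (y := y) H92.Expl23.tri H92.Expl23.one_notMem hσ ξ hξk hc hy (by rw [hyx]; exact hcx)
      have hyQ : (y : G3) ∈ H92.Tri.C D3 d ∩ H92.Tri.C D3 c :=
        ⟨⟨hy, fun h => hdc (by rw [h] at h2; exact h2.symm), h1⟩, ⟨hy, fun h => hdc (by rw [h] at h1; exact h1), h2⟩⟩
      have hσQ : σ ∈ H92.Tri.C D3 d ∩ H92.Tri.C D3 c := ⟨⟨hσ, hdσ.symm, hσd.symm⟩, ⟨hσ, hcσ.symm, hσc.symm⟩⟩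
      obtain ⟨g, hg, hgy⟩ := trans (by norm_num) nl3 hd hc hdc σ hσQ y hyQ
      rw [centralizer_pair (by norm_num) nl3 H92.Expl23.closure_D H92.Expl23.center hd hc hdc, ← hψr] at hg
      obtain ⟨k, rfl⟩ := hg
      have hQ : Q (act (k : I) v) = 2 := by rw [Q_act]; exact Qv
      have h3 : ψ ⟨T (act (k : I) v) hQ, T_mem hQ⟩ = y := by
        rw [← hgy, ← hσψ, ← map_inv, ← map_mul, ← map_mul]
        congr 1
        apply Subtype.ext
        exact (conj_T (k : I) v Qv).symm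
      have h4 : T (act (k : I) v) hQ * T v Qv = T v Qv * T (act (k : I) v) hQ := by
        have h5 : (⟨T (act (k : I) v) hQ, T_mem hQ⟩ : ↥KK) * ⟨T v Qv, T_mem Qv⟩ = ⟨T v Qv, T_mem Qv⟩ * ⟨T (act (k : I) v) hQ, T_mem hQ⟩ := by
          apply hψi
          rw [map_mul, map_mul, h3, hσψ]
          exact Subgroup.mem_centralizer_singleton_iff.1 y.2
        exact congrArg Subtype.val h5
      rcases T_comm hQ Qv h4 with h5 | h5
      · refine ⟨⟨T (act (k : I) v) hQ, Subgroup.subset_closure ⟨_, hQ, h5, rfl⟩⟩, ⟨_, hQ, h5, rfl⟩, ?_⟩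
        rw [← hyx]
        change ξ _ = ξ y
        congr 1
        exact Subtype.ext h3
      · exfalso
        apply hx1
        rw [← hyx, hξk]
        right
        have h6 : (⟨T (act (k : I) v) hQ, T_mem hQ⟩ : ↥KK) = ⟨T v Qv, T_mem Qv⟩ := Subtype.ext h5
        exact h3.symm.trans ((congrArg ψ h6).trans hσψ)
  have hLr : ν.range = Subgroup.closure (H92.Tri.C D2 d' ∩ H92.Tri.C D2 c') := by
    rw [← hgens, ← MonoidHom.map_closure, MonoidHom.range_eq_map]
    congr 1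
    exact Subgroup.closure_closure_coe_preimage.symm
  have hcen2 : Subgroup.center ↥(Subgroup.closure (H92.Tri.C D2 d' ∩ H92.Tri.C D2 c')) = ⊥ := by
    rw [centralizer_pair (by norm_num) nl2 H92.Expl22.closure_D H92.Expl22.center hd2 hc2 hdc2]
    exact H92.Norm3b.center_pair (by norm_num) nl2 H92.Expl22.closure_D H92.Expl22.center hd2 hc2 hdc2
  have hker : ν.ker = Subgroup.center ↥CT := by
    apply le_antisymm
    · intro t ht
      rw [Subgroup.mem_center_iff]
      intro g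
      rcases (hξk _).1 ht with h | h
      · have h1 : t = 1 := by
          apply Subtype.ext
          have h2 : (⟨(t : I), CT_le t.2⟩ : ↥KK) = 1 := hψi (by rw [map_one]; exact h)
          have h3 := congrArg (Subtype.val : ↥KK → I) h2
          exact h3
        rw [h1, mul_one, one_mul]
      · have h1 : (t : I) = T v Qv := by
          have h2 : (⟨(t : I), CT_le t.2⟩ : ↥KK) = ⟨T v Qv, T_mem Qv⟩ := hψi (by rw [hσψ]; exact h)
          exact congrArg Subtype.val h2
        apply Subtype.ext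
        change (g : I) * t = t * g
        rw [h1]; exact CT_comm g.2
    · intro t ht
      rw [MonoidHom.mem_ker]
      have h1 : (⟨ν t, by rw [← hLr]; exact ⟨t, rfl⟩⟩ : ↥(Subgroup.closure (H92.Tri.C D2 d' ∩ H92.Tri.C D2 c'))) ∈
          Subgroup.center ↥(Subgroup.closure (H92.Tri.C D2 d' ∩ H92.Tri.C D2 c')) := by
        rw [Subgroup.mem_center_iff]
        rintro ⟨g, hg⟩
        apply Subtype.ext
        change g * ν t = ν t * g
        rw [← hLr] at hg
        obtain ⟨s, rfl⟩ := hg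
        rw [← map_mul, ← map_mul, Subgroup.mem_center_iff.1 ht s]
      rw [hcen2, Subgroup.mem_bot] at h1
      exact congrArg Subtype.val h1
  refine ⟨2, by decide, quot6 ?_⟩
  have e1 : ↥CT ⧸ ν.ker ≃* ↥ν.range := QuotientGroup.quotientKerEquivRange ν
  have e2 : ↥CT ⧸ ν.ker ≃* ↥CT ⧸ Subgroup.center ↥CT := QuotientGroup.quotientMulEquivOfEq hker
  have e3 : ↥ν.range ≃* ↥(Subgroup.closure (H92.Tri.C D2 d' ∩ H92.Tri.C D2 c')) := MulEquiv.subgroupCongr hLr
  have e4 : (↥(Subgroup.closure (H92.Tri.C D2 d' ∩ H92.Tri.C D2 c')) ⧸ Subgroup.center ↥(Subgroup.closure (H92.Tri.C D2 d' ∩ H92.Tri.C D2 c'))) ≃*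
      ↥(Subgroup.closure (H92.Tri.C D2 d' ∩ H92.Tri.C D2 c')) := (QuotientGroup.quotientMulEquivOfEq hcen2).trans QuotientGroup.quotientBot
  exact e4.trans (e3.symm.trans (e1.symm.trans e2))

end H93.Ex
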