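import Cfsg.Agent.Lib.H93.Tri.L23b
import Cfsg.Agent.Lib.H93.Ex.Congr

/-!
# The centralizer of two non-commuting transpositions of Fi23
-/

set_option autoImplicit false
set_option linter.all false
set_option maxRecDepth 10000

namespace H93.Ex

open H92.Tri H92.Pair2 H92.Pair0 H34.IsoRow
open H35.TCFi22C (Lt mm extra)
open H93.Tri.L24 (L Q mem_L lk_nc bc_ne nl card_L eq_of_three)
open H93.Tri.L23 (G4 G3 D4 D3 card_conj f f_mem τ τ_mem le_H1 X X_le)
open H35.Fi24Base (LA gP i1 i23 H1 p1 sqP hpP invP)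
open H35.Fi24Main (fin)

/-- the centralizer of a transposition of Fi24 maps onto Fi23 -/
theorem xi24 {σ : G4} (hσ : σ ∈ D4) : ∃ ξ : ↥(Subgroup.centralizer ({σ} : Set G4)) →* G3, Function.Surjective ξ ∧
    (∀ z, ξ z = 1 ↔ (z : G4) = 1 ∨ (z : G4) = σ) ∧ (ξ '' {x | (x : G4) ∈ D4}) \ {1} = D3 := by
  obtain ⟨q, hq, hql, hker⟩ := H93.Cen.C24.exists_q
  obtain ⟨g, hgσ⟩ : ∃ g : G4, g * σ * g⁻¹ = gP .l := by
    obtain ⟨g0, hg0⟩ := H92.Expl24.mem_iff.1 hσ
    refine ⟨g0⁻¹, ?_⟩
    rw [← hg0]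
    change g0⁻¹ * (g0 * gP .l * g0⁻¹) * g0⁻¹⁻¹ = gP .l
    group
  have hmem : ∀ z : ↥(Subgroup.centralizer ({σ} : Set G4)),
      ((MulAut.conj g).toMonoidHom.comp (Subgroup.centralizer ({σ} : Set G4)).subtype) z ∈ H1 := by
    intro z
    change g * (z : G4) * g⁻¹ ∈ H1
    rw [← H35.FiClass24.centralizer_l, Subgroup.mem_centralizer_singleton_iff, ← hgσ]
    have h := Subgroup.mem_centralizer_singleton_iff.1 z.2
    calc g * (z : G4) * g⁻¹ * (g * σ * g⁻¹) = g * ((z : G4) * σ) * g⁻¹ := by group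
      _ = g * (σ * z) * g⁻¹ := by rw [h]
      _ = _ := by group
  set c : ↥(Subgroup.centralizer ({σ} : Set G4)) →* ↥H1 :=
    ((MulAut.conj g).toMonoidHom.comp (Subgroup.centralizer ({σ} : Set G4)).subtype).codRestrict H1 hmem with hc
  have hcv : ∀ z, ((c z : ↥H1) : G4) = g * z * g⁻¹ := fun z => rfl
  have hcs : Function.Surjective c := by
    intro y
    have hy : (y : G4) * gP .l = gP .l * y := by
      have h1 : (y : G4) ∈ Subgroup.centralizer ({gP .l} : Set G4) := by rw [H35.FiClass24.centralizer_l]; exact y.2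
      exact Subgroup.mem_centralizer_singleton_iff.1 h1
    have hm : g⁻¹ * (y : G4) * g ∈ Subgroup.centralizer ({σ} : Set G4) := by
      rw [Subgroup.mem_centralizer_singleton_iff]
      have e : σ = g⁻¹ * gP .l * g := by rw [← hgσ]; group
      calc g⁻¹ * (y : G4) * g * σ = g⁻¹ * ((y : G4) * gP .l) * g := by rw [e]; group
        _ = g⁻¹ * (gP .l * y) * g := by rw [hy]
        _ = σ * (g⁻¹ * (y : G4) * g) := by rw [e]; group
    refine ⟨⟨_, hm⟩, Subtype.ext ?_⟩
    rw [hcv]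
    change g * (g⁻¹ * (y : G4) * g) * g⁻¹ = y
    group
  refine ⟨q.comp c, (H93.Tri.L23.q_surj hq hql hker).comp hcs, ?_, ?_⟩
  · intro z
    constructor
    · intro h
      rcases hker _ h with h1 | h1
      · left
        have h2 : g * (z : G4) * g⁻¹ = 1 := congrArg Subtype.val h1
        have : (z : G4) = g⁻¹ * (g * (z : G4) * g⁻¹) * g := by group
        rw [this, h2]; group
      · right
        have h2 : g * (z : G4) * g⁻¹ = gP .l := congrArg Subtype.val h1
        have : (z : G4) = g⁻¹ * (g * (z : G4) * g⁻¹) * g := by group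
        rw [this, h2, ← hgσ]; group
    · rintro (h | h)
      · have : z = 1 := Subtype.ext h
        rw [this, map_one]
      · have h1 : c z = p1 .l := Subtype.ext (by rw [hcv, h, hgσ]; rfl)
        change q (c z) = 1
        rw [h1, hql]
  · rw [← H93.Tri.L23.D3_eq hq hql hker]
    congr 1
    ext y
    constructor
    · rintro ⟨x, hx, rfl⟩
      exact ⟨c x, H92.Expl24.conj_mem hx g, rfl⟩
    · rintro ⟨x, hx, rfl⟩
      obtain ⟨z, rfl⟩ := hcs x
      refine ⟨z, ?_, rfl⟩
      have hx' : g * (z : G4) * g⁻¹ ∈ D4 := hx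
      have h2 := H92.Expl24.conj_mem hx' g⁻¹
      have e : g⁻¹ * (g * (z : G4) * g⁻¹) * g⁻¹⁻¹ = z := by group
      rw [e] at h2
      exact h2

theorem nl3 : NL 2 D3 := nl_two H92.Expl23.lg H92.Expl23.card (fun x hx => H92.Expl23.card_C hx)

/-- sizes of pair centralizers -/
theorem pair_card {G : Type*} [Group G] [Finite G] {n : ℕ} {D : Set G} (h : H92.Geo.LG n D) (hcl : ∀ g : G, ∀ d ∈ D, g * d * g⁻¹ ∈ D)
    {N C : ℕ} (hN : D.ncard = N) {d c : G} (hC : (H92.Tri.C D d).ncard = C) (hd : d ∈ D) (hc : c ∈ D) (hdc : ¬ Commute d c) :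
    Nat.card ↥(Subgroup.centralizer ({d, c} : Set G)) * (N - 1 - C) * N = Nat.card G := by
  have hL := h.lev
  -- first step
  have h1 := card_conj (⊤ : Subgroup G) d
  have e1 : {y : G | ∃ g ∈ (⊤ : Subgroup G), g * d * g⁻¹ = y} = D := by
    ext y
    constructor
    · rintro ⟨g, -, rfl⟩; exact hcl g d hd
    · intro hy
      obtain ⟨g, -, hg⟩ := hL.trans hd hy
      exact ⟨g, Subgroup.mem_top _, hg⟩
  rw [e1, hN, top_inf_eq, Subgroup.card_top] at h1
  -- second step
  have h2 := card_conj (Subgroup.centralizer ({d} : Set G)) c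
  have e2 : {y : G | ∃ g ∈ Subgroup.centralizer ({d} : Set G), g * c * g⁻¹ = y} = {y : G | y ∈ D ∧ ¬ Commute d y} := by
    ext y
    constructor
    · rintro ⟨g, hg, rfl⟩
      refine ⟨hcl g c hc, ?_⟩
      rw [Subgroup.mem_centralizer_singleton_iff] at hg
      intro hcm
      apply hdc
      have e3 : g⁻¹ * d * g = d := by rw [mul_assoc, ← hg]; group
      have h3 := hcm.map (MulAut.conj g⁻¹).toMonoidHom
      have e4 : (MulAut.conj g⁻¹).toMonoidHom d = d := by
        change g⁻¹ * d * g⁻¹⁻¹ = d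
        rw [inv_inv]; exact e3
      have e5 : (MulAut.conj g⁻¹).toMonoidHom (g * c * g⁻¹) = c := by
        change g⁻¹ * (g * c * g⁻¹) * g⁻¹⁻¹ = c
        group
      rwa [e4, e5] at h3
    · rintro ⟨hy, hdy⟩
      obtain ⟨g, -, a1, a2⟩ := H92.Norm3.conj_pair h hd hc hdc hd hy hdy
      refine ⟨g, ?_, a2⟩
      rw [Subgroup.mem_centralizer_singleton_iff]
      exact mul_inv_eq_iff_eq_mul.1 a1
  have e3 : Subgroup.centralizer ({d} : Set G) ⊓ Subgroup.centralizer ({c} : Set G) = Subgroup.centralizer ({d, c} : Set G) := by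
    ext x
    rw [Subgroup.mem_inf, Subgroup.mem_centralizer_singleton_iff, Subgroup.mem_centralizer_singleton_iff, Subgroup.mem_centralizer_iff]
    constructor
    · rintro ⟨a1, a2⟩ y (rfl | hy)
      · exact a1.symm
      · rw [Set.mem_singleton_iff.1 hy]; exact a2.symm
    · intro a
      exact ⟨(a d (by simp)).symm, (a c (by simp)).symm⟩
  have e4 : {y : G | y ∈ D ∧ ¬ Commute d y}.ncard = N - 1 - C := by
    have h5 : D = insert d (H92.Tri.C D d) ∪ {y : G | y ∈ D ∧ ¬ Commute d y} := by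
      ext x
      constructor
      · intro hx
        by_cases h : Commute d x
        · left
          by_cases hxl : x = d
          · left; exact hxl
          · right; exact ⟨hx, hxl, h⟩
        · right; exact ⟨hx, h⟩
      · rintro ((rfl | h) | h)
        · exact hd
        · exact h.1
        · exact h.1
    have h6 : Disjoint (insert d (H92.Tri.C D d)) {y : G | y ∈ D ∧ ¬ Commute d y} := by
      rw [Set.disjoint_left]
      rintro x (rfl | h) h'
      · exact h'.2 (Commute.refl _)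
      · exact h'.2 h.2.2
    have h7 := hN
    rw [h5, Set.ncard_union_eq h6 (Set.toFinite _) (Set.toFinite _), Set.ncard_insert_of_notMem (fun h => h.2.1 rfl) (Set.toFinite _), hC] at h7
    omega
  rw [e2, e3, e4] at h2
  rw [h2, h1]

theorem cl3 : ∀ g : G3, ∀ d ∈ D3, g * d * g⁻¹ ∈ D3 := fun g d hd => H92.Expl23.conj_mem hd g

theorem card_pair3 {d c : G3} (hd : d ∈ D3) (hc : c ∈ D3) (hdc : ¬ Commute d c) :
    Nat.card ↥(Subgroup.centralizer ({d, c} : Set G3)) = 4585351680 := by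
  have hfin : Finite G3 := H35.Fi23Main.fin
  have h := pair_card H92.Expl23.lg cl3 H92.Expl23.card (H92.Expl23.card_C hd) hd hc hdc
  rw [H35.Fi23Main.card_inj.1] at h
  have e : (4089470473293004800 : ℕ) = 4585351680 * (31671 - 1 - 3510) * 31671 := by norm_num
  rw [e, mul_assoc, mul_assoc] at h
  exact Nat.eq_of_mul_eq_mul_right (by norm_num) h

/-- the main construction in Fi23 -/
theorem main23 : ∃ (Θ : PG mm extra →* G3) (d c : G3), d ∈ D3 ∧ c ∈ D3 ∧ ¬ Commute d c ∧ Function.Injective Θ ∧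
    Θ.range = Subgroup.centralizer ({d, c} : Set G3) ∧ ∀ x, Θ (gen mm extra x) ∈ D3 := by
  have hfin3 : Finite G3 := H35.Fi23Main.fin
  obtain ⟨q, hq, hql, hker⟩ := H93.Cen.C24.exists_q
  have hτQ := H93.Tri.L23.τ_Q hq hql hker
  have hτc := H93.Tri.L23.τ_comm hq hql hker
  obtain ⟨ξ, hξs, hξk, hξD⟩ := xi24 (σ := τ) hτQ.1.1
  -- membership
  have hfC : ∀ x, f x ∈ Subgroup.centralizer ({τ} : Set G4) := by
    intro x
    rw [Subgroup.mem_centralizer_singleton_iff]
    exact (hτc x).eq.symm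
  have hlC : gP .l ∈ Subgroup.centralizer ({τ} : Set G4) := by
    rw [Subgroup.mem_centralizer_singleton_iff]
    exact hτQ.1.2.2.eq
  have hkC : gP .k ∈ Subgroup.centralizer ({τ} : Set G4) := by
    rw [Subgroup.mem_centralizer_singleton_iff]
    exact hτQ.2.2.2.eq
  have hD : ∀ (z : G4) (hz : z ∈ Subgroup.centralizer ({τ} : Set G4)), z ∈ D4 → z ≠ τ → ξ ⟨z, hz⟩ ∈ D3 := by
    intro z hz hzD hzt
    rw [← hξD]
    refine ⟨⟨_, hzD, rfl⟩, ?_⟩
    intro h
    rcases (hξk _).1 h with h1 | h1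
    · exact H92.Expl24.one_notMem (h1 ▸ hzD)
    · exact hzt h1
  have hlt : gP .l ≠ τ := fun h => hτQ.1.2.1 h.symm
  have hkt : gP .k ≠ τ := fun h => hτQ.2.2.1 h.symm
  have hft : ∀ x, f x ≠ τ := by
    -- every letter is moved by another letter
    intro x h
    have hcomm : ∀ y, Commute (f x) (f y) := fun y => by rw [h]; exact hτc y
    have hbr : ∀ y, H35.TCFi22C.mm x y = 3 → f x = f y := by
      intro y hy
      have h3 := hpP (H93.Tri.L23.m2 x) (H93.Tri.L23.m2 y)
      rw [← H93.Tri.L23.mm_m2, hy] at h3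
      exact eq_of_three (sqP _) (sqP _) h3 (hcomm y)
    -- connect to b = c
    have hstep : ∀ x y, H35.TCFi22C.mm x y = 3 → f x = τ → f y = τ := by
      intro x y hy hx
      have h3 := hpP (H93.Tri.L23.m2 x) (H93.Tri.L23.m2 y)
      rw [← H93.Tri.L23.mm_m2, hy] at h3
      have hc : Commute (f x) (f y) := by rw [hx]; exact hτc y
      have h9 : f x = f y := eq_of_three (sqP _) (sqP _) h3 hc
      exact h9.symm.trans hx
    have hd : f .d = τ := by
      cases x
      · exact hstep .c .d rfl (hstep .b .c rfl h)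
      · exact hstep .c .d rfl h
      · exact h
      · exact hstep .e .d rfl h
      · exact hstep .e .d rfl (hstep .f .e rfl h)
      · exact hstep .e .d rfl (hstep .f .e rfl (hstep .g .f rfl h))
      · exact hstep .h .d rfl h
      · exact hstep .h .d rfl (hstep .i .h rfl h)
    have hc' := hstep .d .c rfl hd
    have hb' := hstep .c .b rfl hc'
    exact bc_ne (hb'.trans hc'.symm)
  set F : Lt → G3 := fun x => ξ ⟨f x, hfC x⟩ with hF
  obtain ⟨Θ, hΘ⟩ := H34.IsoRow.exists_hom (mm := mm) (ex := extra) F (by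
    intro x y
    rw [hF]
    simp only
    rw [← map_mul, ← map_pow]
    have h1 : ((⟨f x, hfC x⟩ : ↥(Subgroup.centralizer ({τ} : Set G4))) * ⟨f y, hfC y⟩) ^ mm x y = 1 := by
      apply Subtype.ext
      change (f x * f y) ^ mm x y = 1
      rw [H93.Tri.L23.mm_m2]; exact hpP _ _
    rw [h1, map_one]) (by
    intro p hp
    simp only [extra, List.mem_cons, List.mem_nil_iff, or_false] at hp
    rcases hp with rfl | rfl
    · simp only [List.map_cons, List.map_nil, List.prod_cons, List.prod_nil, mul_one]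
      rw [hF]
      simp only
      simp only [← map_mul, ← map_pow]
      rw [hξk]
      right
      change (f .b * (f .c * (f .d * (f .e * (f .f * (f .g * f .h)))))) ^ 9 = τ
      rw [τ]
      simp only [mul_assoc]
    · simp only [List.map_cons, List.map_nil, List.prod_cons, List.prod_nil, mul_one]
      rw [hF]
      simp only
      simp only [← map_mul, ← map_pow]
      rw [hξk]
      left
      change (f .d * (f .c * (f .b * (f .d * (f .e * (f .f * (f .d * (f .h * f .i)))))))) ^ 10 = 1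
      have h := H35.Fi24Base.spiderP
      simp only [List.map_cons, List.map_nil, List.prod_cons, List.prod_nil, mul_one] at h
      exact h)
  obtain ⟨e⟩ := H93.Tri.O7.pg_iso
  have hPGs : IsSimpleGroup (PG mm extra) := (e.isSimpleGroup_congr).2 H93.Tri.O7.simple
  have hFD : ∀ x, F x ∈ D3 := fun x => hD _ _ (H35.FiClass24.letter_mem _) (hft x)
  have hinj : Function.Injective Θ := by
    rw [← MonoidHom.ker_eq_bot_iff]
    rcases hPGs.eq_bot_or_eq_top_of_normal Θ.ker inferInstance with h | h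
    · exact h
    · exfalso
      have h1 : Θ (gen mm extra .b) = 1 := by
        have : gen mm extra .b ∈ Θ.ker := by rw [h]; trivial
        exact this
      rw [hΘ] at h1
      have h2 := hFD .b
      rw [h1] at h2
      exact H92.Expl23.one_notMem h2
  have hd := hD _ hlC (H35.FiClass24.letter_mem .l) hlt
  have hc := hD _ hkC (H35.FiClass24.letter_mem .k) hkt
  have hdc : ¬ Commute (ξ ⟨gP .l, hlC⟩) (ξ ⟨gP .k, hkC⟩) := by
    intro h
    -- [l,k] in {1, τ}
    have h1 : ξ (⟨gP .l, hlC⟩ * ⟨gP .k, hkC⟩ * (⟨gP .k, hkC⟩ * ⟨gP .l, hlC⟩)⁻¹) = 1 := by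
      rw [map_mul, map_inv, map_mul, map_mul, h.eq, mul_inv_cancel]
    rcases (hξk _).1 h1 with h2 | h2
    · have h3 : gP .l * gP .k * (gP .k * gP .l)⁻¹ = 1 := h2
      exact lk_nc (mul_inv_eq_one.1 h3)
    · have h3 : gP .l * gP .k * (gP .k * gP .l)⁻¹ = τ := h2
      -- (lk)^2 = τ has order 2, but (lk)^3 = 1
      have h4 : (gP .k * gP .l)⁻¹ = gP .l * gP .k := by rw [mul_inv_rev, invP, invP]
      rw [h4, ← pow_two] at h3
      have h5 : ((gP .l * gP .k) ^ 2) ^ 3 = τ ^ 3 := by rw [h3]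
      have h6 : ((gP .l * gP .k) ^ 2) ^ 3 = 1 := by
        have h0 : (gP .l * gP .k) ^ 3 = 1 := hpP .l .k
        rw [← pow_mul, mul_comm, pow_mul, h0, one_pow]
      have h7 : τ ^ 3 = τ := by rw [pow_succ, pow_two, nl.tri.sq _ hτQ.1.1, one_mul]
      rw [h6, h7] at h5
      have h8 := hτQ.1.1
      rw [← h5] at h8
      exact H92.Expl24.one_notMem h8
  refine ⟨Θ, ξ ⟨gP .l, hlC⟩, ξ ⟨gP .k, hkC⟩, hd, hc, hdc, hinj, ?_, fun x => by rw [hΘ]; exact hFD x⟩
  -- the range
  have hle : Θ.range ≤ Subgroup.centralizer ({ξ ⟨gP .l, hlC⟩, ξ ⟨gP .k, hkC⟩} : Set G3) := by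
    rw [MonoidHom.range_eq_map, ← gen_top, MonoidHom.map_closure, Subgroup.closure_le]
    rintro _ ⟨_, ⟨x, rfl⟩, rfl⟩
    change Θ (gen mm extra x) ∈ Subgroup.centralizer ({ξ ⟨gP .l, hlC⟩, ξ ⟨gP .k, hkC⟩} : Set G3)
    rw [hΘ, Subgroup.mem_centralizer_iff]
    have hx := mem_L.1 (f_mem x)
    rintro y (rfl | hy)
    · change ξ ⟨gP .l, hlC⟩ * ξ ⟨f x, hfC x⟩ = ξ ⟨f x, hfC x⟩ * ξ ⟨gP .l, hlC⟩
      rw [← map_mul, ← map_mul]
      congr 1
      exact Subtype.ext hx.1.eq.symm
    · rw [Set.mem_singleton_iff.1 hy]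
      change ξ ⟨gP .k, hkC⟩ * ξ ⟨f x, hfC x⟩ = ξ ⟨f x, hfC x⟩ * ξ ⟨gP .k, hkC⟩
      rw [← map_mul, ← map_mul]
      congr 1
      exact Subtype.ext hx.2.eq.symm
  apply Subgroup.eq_of_le_of_card_ge hle
  rw [card_pair3 hd hc hdc, ← Nat.card_congr (MonoidHom.ofInjective hinj).toEquiv, Nat.card_congr e.toEquiv, H93.Tri.O7.card]

end H93.Ex
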